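import Mathlib
import Cfsg.Agent.S0256

set_option autoImplicit false

namespace Cfsg.Agent.Helper17

/-- `GL₄(2)` embeds in `SL₄(2)`. -/
theorem a8_gl_to_sl : ∃ h : GL (Fin 4) (ZMod 2) →* Matrix.SpecialLinearGroup (Fin 4) (ZMod 2),
    Function.Injective h := by
  have hdet : ∀ A : GL (Fin 4) (ZMod 2), (A : Matrix (Fin 4) (Fin 4) (ZMod 2)).det = 1 := by
    intro A
    have h1 : Matrix.GeneralLinearGroup.det A = 1 := Subsingleton.elim _ _
    have h2 := congrArg Units.val h1
    simpa using h2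
  refine ⟨MonoidHom.mk' (fun A => (⟨(A : Matrix (Fin 4) (Fin 4) (ZMod 2)), hdet A⟩ :
      Matrix.SpecialLinearGroup (Fin 4) (ZMod 2)))
    (fun A B => Subtype.ext rfl), ?_⟩
  intro A B hAB
  have := congrArg Subtype.val hAB
  exact Units.ext this

/-- linear automorphisms of a small `𝔽₂`-space embed into those of `𝔽₂⁴`. -/
theorem a8_lin {E : Type*} [AddCommGroup E] [Module (ZMod 2) E] [Finite E]
    (hc : Nat.card E ≤ 16) :
    ∃ f : (E ≃ₗ[ZMod 2] E) →* ((Fin 4 → ZMod 2) ≃ₗ[ZMod 2] (Fin 4 → ZMod 2)),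
      Function.Injective f := by
  classical
  haveI : Fact (Nat.Prime 2) := ⟨Nat.prime_two⟩
  haveI : Fintype E := Fintype.ofFinite E
  obtain ⟨d, hd⟩ : ∃ d, Module.finrank (ZMod 2) E = d := ⟨_, rfl⟩
  have hcard : Nat.card E = 2 ^ d := by
    rw [Nat.card_eq_fintype_card, Module.card_eq_pow_finrank (K := ZMod 2) (V := E), ZMod.card, hd]
  have hd4 : d ≤ 4 := by
    by_contra h
    have h5 : 2 ^ 5 ≤ 2 ^ d := Nat.pow_le_pow_right (by norm_num) (by omega)
    omega
  have hfr : Module.finrank (ZMod 2) (E × (Fin (4 - d) → ZMod 2)) =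
      Module.finrank (ZMod 2) (Fin 4 → ZMod 2) := by
    rw [Module.finrank_prod, Module.finrank_fin_fun, Module.finrank_fin_fun, hd]; omega
  obtain ⟨e⟩ := FiniteDimensional.nonempty_linearEquiv_of_finrank_eq hfr
  refine ⟨MonoidHom.mk' (fun φ => e.symm.trans
    ((φ.prodCongr (LinearEquiv.refl (ZMod 2) (Fin (4 - d) → ZMod 2))).trans e)) ?_, ?_⟩
  · intro a b
    apply LinearEquiv.ext
    intro v
    simp [LinearEquiv.mul_apply]
  · intro a b hab
    apply LinearEquiv.ext
    intro x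
    have h1 := LinearEquiv.congr_fun hab (e (x, 0))
    simp at h1
    exact h1

/-- automorphisms of an elementary abelian `2`-group of order at most 16 embed in `A₈`. -/
theorem a8_embed {V : Type*} [Group V] [Finite V] (hcomm : ∀ a b : V, a * b = b * a)
    (h2 : ∀ a : V, a ^ 2 = 1) (hc : Nat.card V ≤ 16) :
    ∃ f : MulAut V →* alternatingGroup (Fin 8), Function.Injective f := by
  letI : CommGroup V := { (inferInstance : Group V) with mul_comm := hcomm }
  letI : Module (ZMod 2) (Additive V) := AddCommGroup.zmodModule (n := 2) (fun x => by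
    show Additive.ofMul (x.toMul ^ 2) = 0
    rw [h2]; rfl)
  have hcE : Nat.card (Additive V) ≤ 16 := hc
  obtain ⟨f1, hf1⟩ := a8_lin (E := Additive V) hcE
  obtain ⟨h, hh⟩ := a8_gl_to_sl
  obtain ⟨m⟩ := Cfsg.Agent.S0256.main
  let f0 : MulAut V →* (Additive V ≃ₗ[ZMod 2] Additive V) :=
    MonoidHom.mk' (fun φ => AddEquiv.toLinearEquiv (MulEquiv.toAdditive φ)
      (fun c x => ZMod.map_smul (MulEquiv.toAdditive φ) c x))
      (fun a b => by apply LinearEquiv.ext; intro x; rfl)
  have hf0 : Function.Injective f0 := by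
    intro a b hab
    ext v
    have := LinearEquiv.congr_fun hab (Additive.ofMul v)
    exact this
  let ι : ((Fin 4 → ZMod 2) ≃ₗ[ZMod 2] (Fin 4 → ZMod 2)) ≃* GL (Fin 4) (ZMod 2) :=
    (Matrix.GeneralLinearGroup.toLin.trans
      (LinearMap.GeneralLinearGroup.generalLinearEquiv (ZMod 2) (Fin 4 → ZMod 2))).symm
  refine ⟨m.toMonoidHom.comp (h.comp (ι.toMonoidHom.comp (f1.comp f0))), ?_⟩
  exact m.injective.comp (hh.comp (ι.injective.comp (hf1.comp hf0)))

end Cfsg.Agent.Helper17
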