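import Mathlib
import Cfsg.Prelude.Def_CaseTheorems
import Cfsg.Agent.Helper17.A8Emb
import Cfsg.Agent.Helper11.TI2
import Cfsg.Agent.Helper9.Fitting
import Cfsg.Agent.Helper16.FrattiniResidual
import Cfsg.Agent.Lead.PGroup

set_option autoImplicit false

namespace Cfsg.Agent.Helper17

open scoped commutatorElement

theorem a8_fr_comm {Qt : Type*} [Group Qt] [Finite Qt] (hQp : IsPGroup 2 Qt) :
    ∀ a b : Qt ⧸ frattini Qt, a * b = b * a := by
  haveI : Fact (Nat.Prime 2) := ⟨Nat.prime_two⟩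
  haveI : Group.IsNilpotent Qt := hQp.isNilpotent
  intro a b
  induction a using QuotientGroup.induction_on with
  | H a =>
  induction b using QuotientGroup.induction_on with
  | H b =>
  rw [← QuotientGroup.mk_mul, ← QuotientGroup.mk_mul]
  apply QuotientGroup.eq.mpr
  have h1 : (a * b)⁻¹ * (b * a) = ⁅b⁻¹, a⁻¹⁆ := by rw [commutatorElement_def]; group
  rw [h1]
  exact Cfsg.Agent.Helper16.commutator_le_frattini_of_nilpotent
    (Subgroup.commutator_mem_commutator (Subgroup.mem_top _) (Subgroup.mem_top _))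

theorem a8_fr_sq {Qt : Type*} [Group Qt] [Finite Qt] (hQp : IsPGroup 2 Qt) :
    ∀ a : Qt ⧸ frattini Qt, a ^ 2 = 1 := by
  haveI : Fact (Nat.Prime 2) := ⟨Nat.prime_two⟩
  intro a
  induction a using QuotientGroup.induction_on with
  | H a =>
  rw [← QuotientGroup.mk_pow]
  exact (QuotientGroup.eq_one_iff _).mpr (Cfsg.Agent.Lead.pow_mem_frattini hQp a)

theorem a8_card {Qt : Type*} [Group Qt] [Finite Qt] (hQp : IsPGroup 2 Qt)
    (h4 : Cfsg.SectionalPRankLE 2 4 Qt) : Nat.card (Qt ⧸ frattini Qt) ≤ 16 := by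
  obtain ⟨N, hN⟩ : ∃ N : Subgroup ↥(⊤ : Subgroup Qt), N = (frattini Qt).comap
      (Subgroup.topEquiv : ↥(⊤ : Subgroup Qt) ≃* Qt).toMonoidHom := ⟨_, rfl⟩
  haveI hNn : N.Normal := by rw [hN]; infer_instance
  have he : N.map ((Subgroup.topEquiv : ↥(⊤ : Subgroup Qt) ≃* Qt) : ↥(⊤ : Subgroup Qt) →* Qt)
      = frattini Qt := by
    rw [hN]
    exact Subgroup.map_comap_eq_self_of_surjective
      (Subgroup.topEquiv : ↥(⊤ : Subgroup Qt) ≃* Qt).surjective _
  obtain ⟨e⟩ : Nonempty ((↥(⊤ : Subgroup Qt) ⧸ N) ≃* (Qt ⧸ frattini Qt)) :=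
    ⟨QuotientGroup.congr N (frattini Qt) Subgroup.topEquiv he⟩
  have hcomm' : ∀ a b : ↥(⊤ : Subgroup Qt) ⧸ N, a * b = b * a := fun a b =>
    e.injective (by rw [map_mul, map_mul, a8_fr_comm hQp])
  have hsq' : ∀ a : ↥(⊤ : Subgroup Qt) ⧸ N, a ^ 2 = 1 := fun a =>
    e.injective (by rw [map_pow, a8_fr_sq hQp, map_one])
  have hr := h4 ⊤ N ⊤ ⟨⟨fun a b => Subtype.ext (hcomm' a b)⟩⟩ (fun a _ => hsq' a)
  rw [Subgroup.card_top] at hr
  rw [← Nat.card_congr e.toEquiv]
  norm_num at hr ⊢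
  exact hr

/-- the action on the Frattini quotient of a self-centralizing `O₂`. -/
theorem a8_quot {X : Type*} [Group X] [Finite X] (Q : Subgroup X) [hQn : Q.Normal]
    (hQp : IsPGroup 2 ↥Q)
    (hQmax : ∀ K : Subgroup X, K.Normal → IsPGroup 2 ↥K → K ≤ Q)
    (hC : Subgroup.centralizer (Q : Set X) ≤ Q)
    (hcard : Nat.card (↥Q ⧸ frattini ↥Q) ≤ 16) :
    ∃ f : X ⧸ Q →* ↥(alternatingGroup (Fin 8)), Function.Injective f := by
  haveI : Fact (Nat.Prime 2) := ⟨Nat.prime_two⟩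
  have hcomm := a8_fr_comm hQp
  obtain ⟨f, hf⟩ := a8_embed hcomm (a8_fr_sq hQp) hcard
  have hchar : ∀ x : X, (frattini ↥Q).map ((MulAut.conjNormal x : MulAut ↥Q) : ↥Q →* ↥Q)
      = frattini ↥Q := fun x => Subgroup.characteristic_iff_map_eq.mp inferInstance _
  obtain ⟨ρ, hρ⟩ : ∃ ρ : X →* MulAut (↥Q ⧸ frattini ↥Q), ∀ (x : X) (q : ↥Q),
      ρ x (QuotientGroup.mk q) = QuotientGroup.mk (MulAut.conjNormal x q) := by
    refine ⟨MonoidHom.mk' (fun x => QuotientGroup.congr (frattini ↥Q) (frattini ↥Q)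
      (MulAut.conjNormal x) (hchar x)) ?_, fun x q => rfl⟩
    intro x y
    apply MulEquiv.ext
    intro v
    induction v using QuotientGroup.induction_on with
    | H v =>
    rw [MulAut.mul_apply, QuotientGroup.congr_mk, QuotientGroup.congr_mk, QuotientGroup.congr_mk,
      map_mul, MulAut.mul_apply]
  have hker_p : IsPGroup 2 ↥ρ.ker := by
    apply Cfsg.Agent.Helper11.isPGroup_of_frattini_action Q hQn hQp hC
    intro k hk q hq
    have h1 : ρ k (QuotientGroup.mk ⟨q, hq⟩) = QuotientGroup.mk ⟨q, hq⟩ := by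
      rw [MonoidHom.mem_ker.mp hk]; rfl
    rw [hρ] at h1
    have h2 := QuotientGroup.eq.mp h1.symm
    refine ⟨_, h2, ?_⟩
    simp [MulAut.conjNormal_apply, mul_assoc]
  have hker_le : ρ.ker ≤ Q := hQmax _ (MonoidHom.normal_ker ρ) hker_p
  have hQ_le : Q ≤ ρ.ker := by
    intro q hq
    rw [MonoidHom.mem_ker]
    apply MulEquiv.ext
    intro v
    induction v using QuotientGroup.induction_on with
    | H v =>
    rw [hρ, MulAut.one_apply]
    have h3 : MulAut.conjNormal q v = ⟨q, hq⟩ * v * ⟨q, hq⟩⁻¹ :=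
      Subtype.ext (by simp [MulAut.conjNormal_apply])
    rw [h3, QuotientGroup.mk_mul, QuotientGroup.mk_mul,
      hcomm (QuotientGroup.mk ⟨q, hq⟩) (QuotientGroup.mk v), mul_assoc, ← QuotientGroup.mk_mul,
      mul_inv_cancel, QuotientGroup.mk_one, mul_one]
  refine ⟨f.comp (QuotientGroup.lift Q ρ hQ_le), ?_⟩
  apply hf.comp
  rw [injective_iff_map_eq_one]
  intro y hy
  induction y using QuotientGroup.induction_on with
  | H x =>
  rw [QuotientGroup.lift_mk] at hy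
  exact (QuotientGroup.eq_one_iff x).mpr (hker_le (MonoidHom.mem_ker.mpr hy))

end Cfsg.Agent.Helper17
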