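import Mathlib
import Cfsg.Prelude.Def_JComponents
import Cfsg.Agent.Helper17.Extra3
import Cfsg.Agent.Helper17.AxB
import Cfsg.Agent.Helper17.Comm3
import Cfsg.Agent.Helper17.SylIn
import Cfsg.Agent.Helper4.ElemAb
import Cfsg.Agent.Helper4.CardMul
import Cfsg.Agent.Helper16.Large2
import Cfsg.Agent.Helper16.YMinimal3
import Cfsg.Agent.Helper27.Thompson

set_option autoImplicit false

namespace Cfsg.Agent.Helper17

open Cfsg

universe u

variable {G : Type u} [Group G]

theorem mem_omegaCenterOf_iff (Y : Subgroup G) (x : G) :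
    x ∈ Cfsg.omegaCenterOf Y ↔ x ∈ Y ∧ (∀ y ∈ Y, y * x = x * y) ∧ x * x = 1 := by
  constructor
  · intro hx
    let H : Subgroup G :=
      { carrier := {x | x ∈ Y ∧ (∀ y ∈ Y, y * x = x * y) ∧ x * x = 1}
        one_mem' := ⟨Y.one_mem, by simp, by simp⟩
        mul_mem' := by
          rintro a b ⟨ha, hac, ha2⟩ ⟨hb, hbc, hb2⟩
          refine ⟨Y.mul_mem ha hb, ?_, ?_⟩
          · intro y hy
            rw [← mul_assoc, hac y hy, mul_assoc, hbc y hy, mul_assoc]
          · have h1 : b * a = a * b := hac b hb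
            calc a * b * (a * b) = a * (b * a) * b := by group
              _ = a * (a * b) * b := by rw [h1]
              _ = (a * a) * (b * b) := by group
              _ = 1 := by rw [ha2, hb2, one_mul]
        inv_mem' := by
          rintro a ⟨ha, hac, ha2⟩
          have hinv : a⁻¹ = a := inv_eq_of_mul_eq_one_left ha2
          rw [hinv]
          exact ⟨ha, hac, ha2⟩ }
    have hle : Cfsg.omegaCenterOf Y ≤ H := by
      unfold Cfsg.omegaCenterOf Cfsg.omegaOne
      rw [Subgroup.closure_le]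
      rintro a ⟨ha, ha2⟩
      rw [Subgroup.mem_inf, Subgroup.mem_centralizer_iff] at ha
      exact ⟨ha.1, ha.2, by rw [← pow_two]; exact ha2⟩
    exact hle hx
  · rintro ⟨hx, hxc, hx2⟩
    unfold Cfsg.omegaCenterOf Cfsg.omegaOne
    apply Subgroup.subset_closure
    exact ⟨Subgroup.mem_inf.2 ⟨hx, Subgroup.mem_centralizer_iff.2 hxc⟩, by rw [pow_two]; exact hx2⟩

theorem four_group_elems (W : Subgroup G) (hcard : Nat.card W = 4) (hsq : ∀ u ∈ W, u * u = 1)
    {a b : G} (ha : a ∈ W) (hb : b ∈ W) (ha1 : a ≠ 1) (hb1 : b ≠ 1) (hab : a ≠ b) :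
    ∀ u ∈ W, u = 1 ∨ u = a ∨ u = b ∨ u = a * b := by
  classical
  have hb2 := hsq b hb
  have h1 : (1 : G) ≠ a * b := by
    intro h
    apply hab
    have h0 : a = b⁻¹ := eq_inv_of_mul_eq_one_left h.symm
    rw [h0]
    exact inv_eq_of_mul_eq_one_left hb2
  have h2 : a ≠ a * b := by
    intro h
    apply hb1
    have h0 : a * 1 = a * b := by rw [mul_one]; exact h
    exact (mul_left_cancel h0).symm
  have h3 : b ≠ a * b := by
    intro h
    apply ha1
    have h0 : 1 * b = a * b := by rw [one_mul]; exact h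
    exact (mul_right_cancel h0).symm
  have hF : (({1, a, b, a * b} : Finset G) : Set G) ⊆ (W : Set G) := by
    intro x hx
    simp only [Finset.coe_insert, Finset.coe_singleton, Set.mem_insert_iff,
      Set.mem_singleton_iff] at hx
    rcases hx with rfl | rfl | rfl | rfl
    · exact W.one_mem
    · exact ha
    · exact hb
    · exact W.mul_mem ha hb
  have hFcard : ({1, a, b, a * b} : Finset G).card = 4 := by
    rw [Finset.card_insert_of_notMem, Finset.card_insert_of_notMem,
      Finset.card_insert_of_notMem, Finset.card_singleton]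
    · simp [h3]
    · simp [hab, h2]
    · simp [Ne.symm ha1, Ne.symm hb1, h1]
  have hfin : (W : Set G).Finite := by
    have : Finite W := Nat.finite_of_card_ne_zero (by rw [hcard]; norm_num)
    exact Set.toFinite _
  have hW4 : (W : Set G).ncard = 4 := by
    rw [← Nat.card_coe_set_eq]
    exact hcard
  have heq := Set.eq_of_subset_of_ncard_le hF
    (by rw [Set.ncard_coe_finset, hFcard, hW4]) hfin
  intro u hu
  have hu' : u ∈ (({1, a, b, a * b} : Finset G) : Set G) := by
    rw [heq]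
    exact hu
  simpa using hu'

theorem comm_of_sq_eq_one (W : Subgroup G) (hsq : ∀ u ∈ W, u * u = 1) :
    ∀ a ∈ W, ∀ b ∈ W, a * b = b * a := by
  intro a ha b hb
  have h1 := hsq (a * b) (W.mul_mem ha hb)
  have ha2 := hsq a ha
  have hb2 := hsq b hb
  calc a * b = a * (a * b * (a * b)) * b := by rw [h1, mul_one]
    _ = (a * a) * b * a * (b * b) := by group
    _ = b * a := by rw [ha2, hb2, one_mul, mul_one]

theorem card_two_unique [Finite G] (H : Subgroup G) (hcard : Nat.card H = 2) {a b : G}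
    (ha : a ∈ H) (hb : b ∈ H) (ha1 : a ≠ 1) (hb1 : b ≠ 1) : a = b := by
  haveI : Fact (Nat.Prime 2) := ⟨Nat.prime_two⟩
  obtain ⟨n, hn⟩ := exists_pow_eq_of_prime_card H hcard ha ha1 b hb
  have ha2 : a ^ 2 = 1 := by
    have h1 := pow_card_eq_one' (G := H) (x := ⟨a, ha⟩)
    rw [hcard] at h1
    exact congrArg Subtype.val h1
  rw [pow_eq_pow_mod n ha2] at hn
  rcases Nat.mod_two_eq_zero_or_one n with h | h
  · rw [h, pow_zero] at hn
    exact absurd hn.symm hb1
  · rw [h, pow_one] at hn
    exact hn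

theorem exists_isSylowTwoIn_ge [Finite G] (R X : Subgroup G) (hR : IsPGroup 2 R) (hRX : R ≤ X) :
    ∃ S : Subgroup G, Cfsg.IsSylowTwoIn S X ∧ R ≤ S := by
  haveI : Fact (Nat.Prime 2) := ⟨Nat.prime_two⟩
  have hR' : IsPGroup 2 (R.subgroupOf X) := hR.comap_subtype
  obtain ⟨S', hS'⟩ := hR'.exists_le_sylow
  refine ⟨(S' : Subgroup X).map X.subtype, ⟨Subgroup.map_subtype_le _, S'.2.map _, ?_⟩, ?_⟩
  · have h1 : ((S' : Subgroup X).map X.subtype).relIndex X = (S' : Subgroup X).index := by
      unfold Subgroup.relIndex Subgroup.subgroupOf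
      rw [Subgroup.comap_map_eq_self_of_injective X.subtype_injective]
    rw [h1, ← Nat.not_even_iff_odd, even_iff_two_dvd]
    exact S'.not_dvd_index
  · intro r hr
    exact ⟨⟨r, hRX hr⟩, hS' hr, rfl⟩

theorem pow_mul_mem_of_normalizer (K : Subgroup G) {j κ : G}
    (hj : j ∈ Subgroup.normalizer (K : Set G)) (hκ : κ ∈ K) :
    ∀ n : ℕ, ∃ κ' ∈ K, (j * κ) ^ n = j ^ n * κ' := by
  intro n
  induction n with
  | zero => exact ⟨1, K.one_mem, by simp⟩
  | succ n ih =>
    obtain ⟨κ', hκ', h⟩ := ih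
    refine ⟨j⁻¹ * κ' * j * κ, K.mul_mem ?_ hκ, ?_⟩
    · have h1 := (Subgroup.mem_normalizer_iff.1 (Subgroup.inv_mem _ hj) κ').1 hκ'
      rwa [inv_inv] at h1
    · rw [pow_succ, h, pow_succ]
      group

end Cfsg.Agent.Helper17
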