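import Mathlib
import Cfsg.Agent.Helper17.JComp

set_option autoImplicit false

namespace Cfsg.Agent.Helper17

open Cfsg
open scoped commutatorElement

universe u

variable {G : Type u} [Group G]

/-- The norm of `v` under an element `k` of order 3. -/
def nm3 (k v : G) : G := v * (k * v * k⁻¹) * (k * (k * v * k⁻¹) * k⁻¹)

theorem nm3_mul (V : Subgroup G) (hV2 : ∀ v ∈ V, v * v = 1) (k : G)
    (hk : k ∈ Subgroup.normalizer (V : Set G)) {a b : G} (ha : a ∈ V) (hb : b ∈ V) :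
    nm3 k (a * b) = nm3 k a * nm3 k b := by
  have hc := comm_of_sq_eq_one V hV2
  have hn : ∀ v ∈ V, k * v * k⁻¹ ∈ V := fun v hv => (Subgroup.mem_normalizer_iff.1 hk v).1 hv
  obtain ⟨a', ha'⟩ : ∃ x, x = k * a * k⁻¹ := ⟨_, rfl⟩
  obtain ⟨b', hb'⟩ : ∃ x, x = k * b * k⁻¹ := ⟨_, rfl⟩
  obtain ⟨a'', ha''⟩ : ∃ x, x = k * a' * k⁻¹ := ⟨_, rfl⟩
  obtain ⟨b'', hb''⟩ : ∃ x, x = k * b' * k⁻¹ := ⟨_, rfl⟩
  have ha'V : a' ∈ V := by rw [ha']; exact hn a ha
  have hb'V : b' ∈ V := by rw [hb']; exact hn b hb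
  have ha''V : a'' ∈ V := by rw [ha'']; exact hn a' ha'V
  have hb''V : b'' ∈ V := by rw [hb'']; exact hn b' hb'V
  have e1 : k * (a * b) * k⁻¹ = a' * b' := by rw [ha', hb']; group
  have e2 : k * (a' * b') * k⁻¹ = a'' * b'' := by rw [ha'', hb'']; group
  unfold nm3
  rw [e1, e2, ← ha', ← hb', ← ha'', ← hb'']
  have hc1 := hc b hb a' ha'V
  have hc2 := hc b' hb'V a'' ha''V
  have hc3 := hc b hb a'' ha''V
  calc a * b * (a' * b') * (a'' * b'') = a * (b * a') * (b' * a'') * b'' := by group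
    _ = a * (a' * b) * (a'' * b') * b'' := by rw [hc1, hc2]
    _ = a * a' * (b * a'') * b' * b'' := by group
    _ = a * a' * (a'' * b) * b' * b'' := by rw [hc3]
    _ = a * a' * a'' * (b * b' * b'') := by group

theorem nm3_conj (V : Subgroup G) (hV2 : ∀ v ∈ V, v * v = 1) (k : G)
    (hk : k ∈ Subgroup.normalizer (V : Set G)) (hk3 : k ^ 3 = 1) {v : G} (hv : v ∈ V) :
    nm3 k (k * v * k⁻¹) = nm3 k v := by
  have hc := comm_of_sq_eq_one V hV2
  have hn : ∀ v ∈ V, k * v * k⁻¹ ∈ V := fun v hv => (Subgroup.mem_normalizer_iff.1 hk v).1 hv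
  obtain ⟨v', hv'⟩ : ∃ x, x = k * v * k⁻¹ := ⟨_, rfl⟩
  obtain ⟨v'', hv''⟩ : ∃ x, x = k * v' * k⁻¹ := ⟨_, rfl⟩
  have hv'V : v' ∈ V := by rw [hv']; exact hn v hv
  have hv''V : v'' ∈ V := by rw [hv'']; exact hn v' hv'V
  have e3 : k * v'' * k⁻¹ = v := by
    rw [hv'', hv']
    have hk3' : k * k * k = 1 := by rw [← hk3, pow_succ, pow_two]
    have h0 : k * (k * (k * v * k⁻¹) * k⁻¹) * k⁻¹ = (k * k * k) * v * (k * k * k)⁻¹ := by group
    rw [h0, hk3']
    simp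
  unfold nm3
  rw [← hv', ← hv'', e3]
  have hc1 := hc v'' hv''V v hv
  have hc2 := hc v' hv'V v hv
  calc v' * v'' * v = v' * (v'' * v) := by group
    _ = v' * (v * v'') := by rw [hc1]
    _ = (v' * v) * v'' := by group
    _ = v * v' * v'' := by rw [hc2]

theorem fpf_of_order_three [Finite G] (K Q V : Subgroup G) (k : G)
    (hVc : ∀ v ∈ V, ∀ q ∈ Q, q * v = v * q) (hV2 : ∀ v ∈ V, v * v = 1)
    (hKV : K ≤ Subgroup.normalizer (V : Set G)) (hKQ : K ≤ Subgroup.normalizer (Q : Set G))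
    (hk : k ∈ K) (hk3 : k ^ 3 = 1) (hKk : K ≤ Q ⊔ Subgroup.zpowers k) :
    ∀ w ∈ ⁅V, K⁆, k * w * k⁻¹ = w → w = 1 := by
  have hkV := hKV hk
  have hn : ∀ v ∈ V, k * v * k⁻¹ ∈ V := fun v hv => (Subgroup.mem_normalizer_iff.1 hkV v).1 hv
  have hnmV : ∀ v ∈ V, nm3 k v ∈ V := by
    intro v hv
    unfold nm3
    exact V.mul_mem (V.mul_mem hv (hn v hv)) (hn _ (hn v hv))
  have hpow : ∀ n : ℕ, ∀ v ∈ V, k ^ n * v * (k ^ n)⁻¹ ∈ V ∧
      nm3 k (k ^ n * v * (k ^ n)⁻¹) = nm3 k v := by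
    intro n
    induction n with
    | zero => intro v hv; simp [hv]
    | succ n ih =>
      intro v hv
      obtain ⟨h1, h2⟩ := ih v hv
      have e : k ^ (n + 1) * v * (k ^ (n + 1))⁻¹ = k * (k ^ n * v * (k ^ n)⁻¹) * k⁻¹ := by
        rw [pow_succ']; group
      rw [e]
      exact ⟨hn _ h1, (nm3_conj V hV2 k hkV hk3 h1).trans h2⟩
  let U : Subgroup G :=
    { carrier := {v | v ∈ V ∧ nm3 k v = 1}
      one_mem' := ⟨V.one_mem, by unfold nm3; simp⟩
      mul_mem' := by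
        rintro a b ⟨ha, ha1⟩ ⟨hb, hb1⟩
        exact ⟨V.mul_mem ha hb, by rw [nm3_mul V hV2 k hkV ha hb, ha1, hb1, one_mul]⟩
      inv_mem' := by
        rintro a ⟨ha, ha1⟩
        have hinv : a⁻¹ = a := inv_eq_of_mul_eq_one_left (hV2 a ha)
        rw [hinv]
        exact ⟨ha, ha1⟩ }
  have hWU : ⁅V, K⁆ ≤ U := by
    rw [Subgroup.commutator_le]
    intro v hv κ hκ
    have hκ' : κ ∈ Subgroup.zpowers k ⊔ Q := by rw [sup_comm]; exact hKk hκ
    have hzn : Subgroup.zpowers k ≤ Subgroup.normalizer (Q : Set G) := by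
      rw [Subgroup.zpowers_le]; exact hKQ hk
    obtain ⟨y, hy, q, hq, rfl⟩ := Helper16.mem_sup_of_le_normalizer hzn hκ'
    obtain ⟨n, rfl⟩ := (Submonoid.mem_powers_iff _ _).1 (mem_powers_iff_mem_zpowers.2 hy)
    have hinv : v⁻¹ = v := inv_eq_of_mul_eq_one_left (hV2 v hv)
    have e : ⁅v, k ^ n * q⁆ = v * (k ^ n * v * (k ^ n)⁻¹) := by
      rw [commutatorElement_def, hinv]
      have hq1 : q * v = v * q := hVc v hv q hq
      calc v * (k ^ n * q) * v * (k ^ n * q)⁻¹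
          = v * (k ^ n * (q * v) * q⁻¹ * (k ^ n)⁻¹) := by group
        _ = v * (k ^ n * (v * q) * q⁻¹ * (k ^ n)⁻¹) := by rw [hq1]
        _ = v * (k ^ n * v * (k ^ n)⁻¹) := by group
    rw [e]
    obtain ⟨h1, h2⟩ := hpow n v hv
    refine ⟨V.mul_mem hv h1, ?_⟩
    rw [nm3_mul V hV2 k hkV hv h1, h2]
    exact hV2 _ (hnmV v hv)
  intro w hw hfix
  obtain ⟨hwV, hw1⟩ := hWU hw
  unfold nm3 at hw1
  rw [hfix, hfix, hV2 w hwV, one_mul] at hw1
  exact hw1

theorem exists_order_three_gen [Finite G] (K : Subgroup G)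
    (hgen : Subgroup.closure {g : G | g ∈ K ∧ Odd (orderOf g)} = K)
    (hidx : (pCoreOf 2 K).relIndex K = 3) :
    ∃ k ∈ K, k ∉ pCoreOf 2 K ∧ k ^ 3 = 1 ∧ K ≤ pCoreOf 2 K ⊔ Subgroup.zpowers k := by
  have hQK := Helper16.pCoreOf_le 2 K
  have hQ2 := Helper16.isPGroup_pCoreOf 2 K
  have hex : ∃ g ∈ K, Odd (orderOf g) ∧ g ∉ pCoreOf 2 K := by
    by_contra hcon
    push Not at hcon
    have hle : K ≤ pCoreOf 2 K :=
      calc K = Subgroup.closure {g : G | g ∈ K ∧ Odd (orderOf g)} := hgen.symm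
        _ ≤ pCoreOf 2 K := (Subgroup.closure_le _).2 (fun g hg => hcon g hg.1 hg.2)
    have h1 := Subgroup.relIndex_eq_one.2 hle
    omega
  obtain ⟨g, hgK, hodd, hgQ⟩ := hex
  have hidx' : (pCore 2 K).index = 3 := by
    have h0 : (pCoreOf 2 K).subgroupOf K = pCore 2 K := by
      unfold pCoreOf
      exact Subgroup.comap_map_eq_self_of_injective K.subtype_injective _
    rw [← h0]
    exact hidx
  have h3 : (⟨g, hgK⟩ : K) ^ (pCore 2 K).index ∈ pCore 2 K := Subgroup.pow_index_mem _ _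
  rw [hidx'] at h3
  have hg3Q : g ^ 3 ∈ pCoreOf 2 K := ⟨_, h3, by simp⟩
  have hg3 : g ^ 3 = 1 := by
    obtain ⟨n, hn⟩ := (IsPGroup.iff_orderOf.1 hQ2) ⟨g ^ 3, hg3Q⟩
    have h1 : orderOf (g ^ 3) = 2 ^ n := by rw [← hn, Subgroup.orderOf_mk]
    have h2 : orderOf (g ^ 3) ∣ orderOf g := orderOf_pow_dvd 3
    rw [h1] at h2
    have h4 : Nat.Coprime (2 ^ n) (orderOf g) :=
      Nat.Coprime.pow_left n (Nat.coprime_two_left.mpr hodd)
    have h5 : 2 ^ n = 1 := Nat.Coprime.eq_one_of_dvd h4 h2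
    rw [h5] at h1
    exact orderOf_eq_one_iff.1 h1
  refine ⟨g, hgK, hgQ, hg3, ?_⟩
  have hH : pCoreOf 2 K ⊔ Subgroup.zpowers g ≤ K := sup_le hQK ((Subgroup.zpowers_le).2 hgK)
  have hmul := Subgroup.relIndex_mul_relIndex (pCoreOf 2 K) (pCoreOf 2 K ⊔ Subgroup.zpowers g) K
    le_sup_left hH
  rw [hidx] at hmul
  have hne : (pCoreOf 2 K).relIndex (pCoreOf 2 K ⊔ Subgroup.zpowers g) ≠ 1 := by
    intro h
    rw [Subgroup.relIndex_eq_one] at h
    exact hgQ (h (Subgroup.mem_sup_right (Subgroup.mem_zpowers g)))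
  have hdvd : (pCoreOf 2 K).relIndex (pCoreOf 2 K ⊔ Subgroup.zpowers g) ∣ 3 := Dvd.intro _ hmul
  have h3' : (pCoreOf 2 K).relIndex (pCoreOf 2 K ⊔ Subgroup.zpowers g) = 3 := by
    rcases (Nat.dvd_prime Nat.prime_three).1 hdvd with h | h
    · exact absurd h hne
    · exact h
  rw [h3'] at hmul
  have h1 : (pCoreOf 2 K ⊔ Subgroup.zpowers g).relIndex K = 1 := by omega
  exact Subgroup.relIndex_eq_one.1 h1

theorem omegaCenterOf_le (Y : Subgroup G) : omegaCenterOf Y ≤ Y :=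
  fun _ hx => ((mem_omegaCenterOf_iff Y _).1 hx).1

theorem normalizer_le_normalizer_omegaCenterOf (Y : Subgroup G) :
    Subgroup.normalizer (Y : Set G) ≤ Subgroup.normalizer ((omegaCenterOf Y : Subgroup G) : Set G) := by
  apply le_normalizer_of_conj_mem
  intro n hn x hx
  rw [mem_omegaCenterOf_iff] at hx ⊢
  obtain ⟨hxY, hxc, hx2⟩ := hx
  refine ⟨(Subgroup.mem_normalizer_iff.1 hn x).1 hxY, ?_, ?_⟩
  · intro y hy
    have h1 : n⁻¹ * y * n ∈ Y := ((Subgroup.mem_normalizer_iff''.1 hn) y).1 hy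
    have h2 := hxc _ h1
    calc y * (n * x * n⁻¹) = n * (n⁻¹ * y * n * x) * n⁻¹ := by group
      _ = n * (x * (n⁻¹ * y * n)) * n⁻¹ := by rw [h2]
      _ = n * x * n⁻¹ * y := by group
  · calc n * x * n⁻¹ * (n * x * n⁻¹) = n * (x * x) * n⁻¹ := by group
      _ = 1 := by rw [hx2]; group

theorem normalizer_inf_le_normalizer_commutator (A B : Subgroup G) :
    Subgroup.normalizer (A : Set G) ⊓ Subgroup.normalizer (B : Set G) ≤
      Subgroup.normalizer ((⁅A, B⁆ : Subgroup G) : Set G) := by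
  intro x hx
  obtain ⟨hxA, hxB⟩ := Subgroup.mem_inf.1 hx
  apply mem_normalizer_of_map_conj_eq
  rw [Subgroup.map_commutator, map_conj_eq_of_mem_normalizer A hxA,
    map_conj_eq_of_mem_normalizer B hxB]

theorem normalizer_le_normalizer_centralizer (W : Subgroup G) :
    Subgroup.normalizer (W : Set G) ≤
      Subgroup.normalizer ((Subgroup.centralizer (W : Set G) : Subgroup G) : Set G) := by
  apply le_normalizer_of_conj_mem
  intro n hn c hc
  rw [Subgroup.mem_centralizer_iff] at hc ⊢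
  intro w hw
  have h1 : n⁻¹ * w * n ∈ W := ((Subgroup.mem_normalizer_iff''.1 hn) w).1 hw
  have h2 := hc _ h1
  calc w * (n * c * n⁻¹) = n * (n⁻¹ * w * n * c) * n⁻¹ := by group
    _ = n * (c * (n⁻¹ * w * n)) * n⁻¹ := by rw [h2]
    _ = n * c * n⁻¹ * w := by group

structure JCData (J K Q V W : Subgroup G) (k : G) : Prop where
  hJ2 : IsPGroup 2 J
  hJK : J ≤ Subgroup.normalizer (K : Set G)
  hKJ : ⁅K, J⁆ = K
  hQK : Q ≤ K
  hQ2 : IsPGroup 2 Q
  hKQ : K ≤ Subgroup.normalizer (Q : Set G)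
  hJQ : J ≤ Subgroup.normalizer (Q : Set G)
  hVQ : V ≤ Q
  hVc : ∀ v ∈ V, ∀ q ∈ Q, q * v = v * q
  hV2 : ∀ v ∈ V, v * v = 1
  hKV : K ≤ Subgroup.normalizer (V : Set G)
  hJV : J ≤ Subgroup.normalizer (V : Set G)
  hWV : W ≤ V
  hKW : K ≤ Subgroup.normalizer (W : Set G)
  hJW : J ≤ Subgroup.normalizer (W : Set G)
  hW4 : Nat.card W = 4
  hk : k ∈ K
  hk3 : k ^ 3 = 1
  hKk : K ≤ Q ⊔ Subgroup.zpowers k
  hfpf : ∀ w ∈ W, k * w * k⁻¹ = w → w = 1

theorem jcData_of_isJComponent [Finite G] (T K : Subgroup G) (hT : IsPGroup 2 T)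
    (hK : IsJComponent T K) :
    ∃ k, JCData (thompsonSubgroupOf 2 T) K (pCoreOf 2 K) (omegaCenterOf (pCoreOf 2 K))
      (wOf K) k := by
  obtain ⟨hgen, hKJ, hidx, hS, hW4, hW2⟩ := hK
  obtain ⟨k, hk, hkQ, hk3, hKk⟩ := exists_order_three_gen K hgen hidx
  have hJT : thompsonSubgroupOf 2 T ≤ T := Subgroup.map_subtype_le _
  have hJK : thompsonSubgroupOf 2 T ≤ Subgroup.normalizer (K : Set G) := by
    have h := le_normalizer_commutator_self_left (thompsonSubgroupOf 2 T) K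
    rw [Subgroup.commutator_comm, hKJ] at h
    exact h
  have hKQ := Helper16.le_normalizer_pCoreOf 2 K
  have hNKQ := Helper16.normalizer_le_normalizer_pCoreOf 2 K
  have hNQV := normalizer_le_normalizer_omegaCenterOf (pCoreOf 2 K)
  have hVQ := omegaCenterOf_le (pCoreOf 2 K)
  have hVc : ∀ v ∈ omegaCenterOf (pCoreOf 2 K), ∀ q ∈ pCoreOf 2 K, q * v = v * q :=
    fun v hv q hq => ((mem_omegaCenterOf_iff _ _).1 hv).2.1 q hq
  have hV2 : ∀ v ∈ omegaCenterOf (pCoreOf 2 K), v * v = 1 :=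
    fun v hv => ((mem_omegaCenterOf_iff _ _).1 hv).2.2
  have hKV : K ≤ Subgroup.normalizer ((omegaCenterOf (pCoreOf 2 K) : Subgroup G) : Set G) :=
    hKQ.trans hNQV
  have hJV : thompsonSubgroupOf 2 T ≤
      Subgroup.normalizer ((omegaCenterOf (pCoreOf 2 K) : Subgroup G) : Set G) :=
    hJK.trans (hNKQ.trans hNQV)
  have hWV : wOf K ≤ omegaCenterOf (pCoreOf 2 K) := by
    unfold wOf
    rw [Subgroup.commutator_le]
    intro v hv κ hκ
    rw [commutatorElement_def]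
    have h1 : κ * v⁻¹ * κ⁻¹ ∈ omegaCenterOf (pCoreOf 2 K) :=
      (Subgroup.mem_normalizer_iff.1 (hKV hκ) _).1 (Subgroup.inv_mem _ hv)
    have h0 : v * κ * v⁻¹ * κ⁻¹ = v * (κ * v⁻¹ * κ⁻¹) := by group
    rw [h0]
    exact Subgroup.mul_mem _ hv h1
  have hNW : Subgroup.normalizer ((omegaCenterOf (pCoreOf 2 K) : Subgroup G) : Set G) ⊓
      Subgroup.normalizer (K : Set G) ≤ Subgroup.normalizer ((wOf K : Subgroup G) : Set G) :=
    normalizer_inf_le_normalizer_commutator _ _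
  exact ⟨k,
    { hJ2 := hT.to_le hJT
      hJK := hJK
      hKJ := hKJ
      hQK := Helper16.pCoreOf_le 2 K
      hQ2 := Helper16.isPGroup_pCoreOf 2 K
      hKQ := hKQ
      hJQ := hJK.trans hNKQ
      hVQ := hVQ
      hVc := hVc
      hV2 := hV2
      hKV := hKV
      hJV := hJV
      hWV := hWV
      hKW := (le_inf hKV Subgroup.le_normalizer).trans hNW
      hJW := (le_inf hJV hJK).trans hNW
      hW4 := hW4
      hk := hk
      hk3 := hk3
      hKk := hKk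
      hfpf := fpf_of_order_three K (pCoreOf 2 K) (omegaCenterOf (pCoreOf 2 K)) k hVc hV2 hKV hKQ
        hk hk3 hKk }⟩

end Cfsg.Agent.Helper17
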