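import Mathlib
import Cfsg.Agent.Helper17.JComp2

set_option autoImplicit false

namespace Cfsg.Agent.Helper17

open Cfsg
open scoped commutatorElement

universe u

variable {G : Type u} [Group G]

theorem JCData.hW2 {J K Q V W : Subgroup G} {k : G} (h : JCData J K Q V W k) :
    ∀ w ∈ W, w * w = 1 := fun w hw => h.hV2 w (h.hWV hw)

theorem JCData.k_not_centralizes [Finite G] {J K Q V W : Subgroup G} {k : G}
    (h : JCData J K Q V W k) : k ∉ Subgroup.centralizer (W : Set G) := by
  intro hkc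
  have hW1 : ∀ w ∈ W, w = 1 := by
    intro w hw
    apply h.hfpf w hw
    have h0 := (Subgroup.mem_centralizer_iff.1 hkc) w hw
    rw [← h0]
    group
  have hbot : W = ⊥ := (Subgroup.eq_bot_iff_forall _).2 hW1
  have h4 := h.hW4
  rw [hbot, Subgroup.card_bot] at h4
  omega

theorem JCData.Q_le_centralizer {J K Q V W : Subgroup G} {k : G} (h : JCData J K Q V W k) :
    Q ≤ Subgroup.centralizer (W : Set G) := by
  intro q hq
  rw [Subgroup.mem_centralizer_iff]
  intro w hw
  exact (h.hVc w (h.hWV hw) q hq).symm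

theorem JCData.mem_Q_of_centralizes [Finite G] {J K Q V W : Subgroup G} {k : G}
    (h : JCData J K Q V W k) {κ : G} (hκ : κ ∈ K)
    (hc : κ ∈ Subgroup.centralizer (W : Set G)) : κ ∈ Q := by
  have hκ' : κ ∈ Subgroup.zpowers k ⊔ Q := by rw [sup_comm]; exact h.hKk hκ
  have hzn : Subgroup.zpowers k ≤ Subgroup.normalizer (Q : Set G) := by
    rw [Subgroup.zpowers_le]; exact h.hKQ h.hk
  obtain ⟨y, hy, q, hq, rfl⟩ := Helper16.mem_sup_of_le_normalizer hzn hκ'
  have hqc : q ∈ Subgroup.centralizer (W : Set G) := h.Q_le_centralizer hq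
  have hyc : y ∈ Subgroup.centralizer (W : Set G) := by
    have h0 := Subgroup.mul_mem _ hc (Subgroup.inv_mem _ hqc)
    simpa using h0
  by_cases hy1 : y = 1
  · rw [hy1, one_mul]; exact hq
  · exfalso
    have hk1 : k ≠ 1 := by
      rintro rfl
      apply hy1
      simpa using hy
    have hord : orderOf k = 3 := orderOf_eq_prime h.hk3 hk1
    haveI : Fact (Nat.Prime 3) := ⟨Nat.prime_three⟩
    have hcard : Nat.card (Subgroup.zpowers k) = 3 := by rw [Nat.card_zpowers, hord]
    obtain ⟨n, hn⟩ := exists_pow_eq_of_prime_card (Subgroup.zpowers k) hcard hy hy1 k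
      (Subgroup.mem_zpowers k)
    have hkc : k ∈ Subgroup.centralizer (W : Set G) := by
      rw [← hn]; exact Subgroup.pow_mem _ hyc n
    exact h.k_not_centralizes hkc

theorem JCData.isPGroup_D [Finite G] {J K Q V W : Subgroup G} {k : G} (h : JCData J K Q V W k) :
    IsPGroup 2 ((K ⊔ J) ⊓ Subgroup.centralizer (W : Set G) : Subgroup G) := by
  rintro ⟨x, hx⟩
  obtain ⟨hxX, hxc⟩ := Subgroup.mem_inf.1 hx
  have hxX' : x ∈ J ⊔ K := by rw [sup_comm]; exact hxX
  obtain ⟨j, hj, κ, hκ, rfl⟩ := Helper16.mem_sup_of_le_normalizer h.hJK hxX'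
  obtain ⟨a, ha⟩ := h.hJ2 ⟨j, hj⟩
  have hja : j ^ (2 ^ a) = 1 := by simpa using congrArg Subtype.val ha
  obtain ⟨κ', hκ', hpow⟩ := pow_mul_mem_of_normalizer K (h.hJK hj) hκ (2 ^ a)
  rw [hja, one_mul] at hpow
  have hκ'c : κ' ∈ Subgroup.centralizer (W : Set G) := by
    rw [← hpow]; exact Subgroup.pow_mem _ hxc _
  have hκ'Q := h.mem_Q_of_centralizes hκ' hκ'c
  obtain ⟨b, hb⟩ := h.hQ2 ⟨κ', hκ'Q⟩
  have hκb : κ' ^ (2 ^ b) = 1 := by simpa using congrArg Subtype.val hb
  refine ⟨a + b, ?_⟩
  apply Subtype.ext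
  show (j * κ) ^ (2 ^ (a + b)) = 1
  rw [pow_add, pow_mul, hpow, hκb]

theorem JCData.X_le_normalizer_W {J K Q V W : Subgroup G} {k : G} (h : JCData J K Q V W k) :
    K ⊔ J ≤ Subgroup.normalizer (W : Set G) := sup_le h.hKW h.hJW

theorem JCData.X_le_normalizer_D {J K Q V W : Subgroup G} {k : G} (h : JCData J K Q V W k) :
    K ⊔ J ≤ Subgroup.normalizer
      (((K ⊔ J) ⊓ Subgroup.centralizer (W : Set G) : Subgroup G) : Set G) := by
  apply le_normalizer_of_conj_mem
  intro x hx d hd
  obtain ⟨hdX, hdc⟩ := Subgroup.mem_inf.1 hd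
  refine Subgroup.mem_inf.2 ⟨Subgroup.mul_mem _ (Subgroup.mul_mem _ hx hdX)
    (Subgroup.inv_mem _ hx), ?_⟩
  exact (Subgroup.mem_normalizer_iff.1
    (normalizer_le_normalizer_centralizer W (h.X_le_normalizer_W hx)) d).1 hdc

theorem JCData.not_J_le_centralizer [Finite G] {J K Q V W : Subgroup G} {k : G}
    (h : JCData J K Q V W k) : ¬ J ≤ Subgroup.centralizer (W : Set G) := by
  intro hJC
  have hKN : K ≤ Subgroup.normalizer
      ((Subgroup.centralizer (W : Set G) : Subgroup G) : Set G) :=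
    h.hKW.trans (normalizer_le_normalizer_centralizer W)
  have hKC : ⁅K, J⁆ ≤ Subgroup.centralizer (W : Set G) := by
    rw [Subgroup.commutator_le]
    intro κ hκ j hj
    rw [commutatorElement_def]
    have h1 : κ * j * κ⁻¹ ∈ Subgroup.centralizer (W : Set G) :=
      (Subgroup.mem_normalizer_iff.1 (hKN hκ) j).1 (hJC hj)
    exact Subgroup.mul_mem _ h1 (Subgroup.inv_mem _ (hJC hj))
  exact h.k_not_centralizes (hKC (h.hKJ.ge h.hk))

theorem JCData.exists_fixed [Finite G] {J K Q V W : Subgroup G} {k : G}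
    (h : JCData J K Q V W k) : ∃ a ∈ W, a ≠ 1 ∧ ∀ j ∈ J, j * a = a * j := by
  haveI : Fact (Nat.Prime 2) := ⟨Nat.prime_two⟩
  have hW2g : IsPGroup 2 W := h.hQ2.to_le (h.hWV.trans h.hVQ)
  have hJW2 : IsPGroup 2 (J ⊔ W : Subgroup G) :=
    IsPGroup.to_sup_of_normal_right' h.hJ2 hW2g h.hJW
  have hWne : W ≠ ⊥ := by
    intro hbot
    have h4 := h.hW4
    rw [hbot, Subgroup.card_bot] at h4
    omega
  have hnorm : J ⊔ W ≤ Subgroup.normalizer (W : Set G) := sup_le h.hJW Subgroup.le_normalizer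
  obtain ⟨z, hzW, hzo, hzc⟩ := exists_central_mem_of_normal (J ⊔ W) W hJW2 le_sup_right hnorm hWne
  refine ⟨z, hzW, ?_, fun j hj => hzc j (Subgroup.mem_sup_left hj)⟩
  rintro rfl
  rw [orderOf_one] at hzo
  omega

theorem four_group_star [Finite G] (W B : Subgroup G) (hW4 : Nat.card W = 4)
    (hW2 : ∀ w ∈ W, w * w = 1) (hB : IsElementaryAbelian 2 B)
    (hBW : B ≤ Subgroup.normalizer (W : Set G))
    (hBC : ¬ B ≤ Subgroup.centralizer (W : Set G)) {a : G} (ha : a ∈ W) (ha1 : a ≠ 1)
    (hac : ∀ x ∈ B, x * a = a * x) :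
    IsElementaryAbelian 2 ((B ⊓ Subgroup.centralizer (W : Set G)) ⊔ W : Subgroup G) ∧
      Nat.card B ≤ Nat.card ((B ⊓ Subgroup.centralizer (W : Set G)) ⊔ W : Subgroup G) := by
  have hWc := comm_of_sq_eq_one W hW2
  have hWel : IsElementaryAbelian 2 W := by
    refine ⟨Subgroup.le_centralizer_iff_isMulCommutative.1 ?_, fun w hw => by
      rw [pow_two]; exact hW2 w hw⟩
    intro w hw
    rw [Subgroup.mem_centralizer_iff]
    intro u hu
    exact hWc u hu w hw
  have hB₀el : IsElementaryAbelian 2 (B ⊓ Subgroup.centralizer (W : Set G) : Subgroup G) :=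
    Helper4.isElementaryAbelian_of_le hB inf_le_left
  have hBcomm : ∀ x ∈ B, ∀ y ∈ B, x * y = y * x := by
    intro x hx y hy
    have h0 := Subgroup.le_centralizer_iff_isMulCommutative.2 hB.1 hy
    exact (Subgroup.mem_centralizer_iff.1 h0) x hx
  constructor
  · apply Helper4.isElementaryAbelian_sup hB₀el hWel
    intro w hw
    rw [Subgroup.mem_centralizer_iff]
    intro x hx
    exact ((Subgroup.mem_centralizer_iff.1 (Subgroup.mem_inf.1 hx).2) w hw).symm
  · obtain ⟨b, hbB, hbC⟩ := SetLike.not_le_iff_exists.1 hBC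
    rw [Subgroup.mem_centralizer_iff] at hbC
    push Not at hbC
    obtain ⟨w₀, hw₀, hne⟩ := hbC
    have hw₀1 : w₀ ≠ 1 := by
      rintro rfl
      apply hne
      simp
    have haw₀ : a ≠ w₀ := by
      rintro rfl
      exact hne (hac b hbB).symm
    have hfour := four_group_elems W hW4 hW2 ha hw₀ ha1 hw₀1 haw₀
    have hconjW : ∀ x ∈ B, ∀ w ∈ W, x * w * x⁻¹ ∈ W :=
      fun x hx w hw => (Subgroup.mem_normalizer_iff.1 (hBW hx) w).1 hw
    have hconja : ∀ x ∈ B, x * a * x⁻¹ = a := by
      intro x hx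
      rw [hac x hx]
      group
    have hconj : ∀ x ∈ B, x * w₀ * x⁻¹ = w₀ ∨ x * w₀ * x⁻¹ = a * w₀ := by
      intro x hx
      rcases hfour _ (hconjW x hx w₀ hw₀) with h | h | h | h
      · exfalso
        apply hw₀1
        have h0 : w₀ = x⁻¹ * (x * w₀ * x⁻¹) * x := by group
        rw [h0, h]
        group
      · exfalso
        apply haw₀
        have h0 : w₀ = x⁻¹ * (x * w₀ * x⁻¹) * x := by group
        rw [h0, h, mul_assoc, ← hac x hx]
        group
      · exact Or.inl h
      · exact Or.inr h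
    have hcent : ∀ x ∈ B, x * w₀ * x⁻¹ = w₀ → x ∈ Subgroup.centralizer (W : Set G) := by
      intro x hx hfix
      rw [Subgroup.mem_centralizer_iff]
      have hw₀x : w₀ * x = x * w₀ := by
        calc w₀ * x = (x * w₀ * x⁻¹) * x := by rw [hfix]
          _ = x * w₀ := by group
      intro u hu
      rcases hfour u hu with h | h | h | h
      · rw [h]; simp
      · rw [h]; exact (hac x hx).symm
      · rw [h]; exact hw₀x
      · rw [h, mul_assoc, hw₀x, ← mul_assoc, ← hac x hx, mul_assoc]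
    have hbw₀ : b * w₀ * b⁻¹ = a * w₀ := by
      rcases hconj b hbB with h | h
      · exfalso
        apply hne
        calc w₀ * b = (b * w₀ * b⁻¹) * b := by rw [h]
          _ = b * w₀ := by group
      · exact h
    have ha2 : a * a = 1 := hW2 a ha
    have hb2 : b ^ 2 = 1 := hB.2 b hbB
    have hle : B ≤ (B ⊓ Subgroup.centralizer (W : Set G)) ⊔ Subgroup.zpowers b := by
      intro x hx
      rcases hconj x hx with h | h
      · exact Subgroup.mem_sup_left (Subgroup.mem_inf.2 ⟨hx, hcent x hx h⟩)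
      · have hxb : x * b ∈ B ⊓ Subgroup.centralizer (W : Set G) := by
          refine Subgroup.mem_inf.2 ⟨B.mul_mem hx hbB, hcent _ (B.mul_mem hx hbB) ?_⟩
          calc x * b * w₀ * (x * b)⁻¹ = x * (b * w₀ * b⁻¹) * x⁻¹ := by group
            _ = x * (a * w₀) * x⁻¹ := by rw [hbw₀]
            _ = (x * a * x⁻¹) * (x * w₀ * x⁻¹) := by group
            _ = a * (a * w₀) := by rw [hconja x hx, h]
            _ = (a * a) * w₀ := by group
            _ = w₀ := by rw [ha2, one_mul]
        have h0 : x = (x * b) * b⁻¹ := by group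
        rw [h0]
        exact Subgroup.mul_mem_sup hxb (Subgroup.inv_mem _ (Subgroup.mem_zpowers b))
    have hnorm1 : (B ⊓ Subgroup.centralizer (W : Set G) : Subgroup G) ≤
        Subgroup.normalizer ((Subgroup.zpowers b : Subgroup G) : Set G) := by
      apply le_normalizer_of_conj_mem
      intro n hn x hx
      have hnB : n ∈ B := (Subgroup.mem_inf.1 hn).1
      have hxB : x ∈ B := (Subgroup.zpowers_le.2 hbB) hx
      have h0 : n * x * n⁻¹ = x := by
        rw [hBcomm n hnB x hxB]
        group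
      rw [h0]
      exact hx
    have hc1 := Helper4.card_sup_mul_card_inf (B ⊓ Subgroup.centralizer (W : Set G))
      (Subgroup.zpowers b) hnorm1
    have hzb : Nat.card (Subgroup.zpowers b) ≤ 2 := by
      rw [Nat.card_zpowers]
      exact orderOf_le_of_pow_eq_one (by norm_num) hb2
    have hpos1 : 0 < Nat.card ((B ⊓ Subgroup.centralizer (W : Set G)) ⊓ Subgroup.zpowers b :
        Subgroup G) := Nat.card_pos
    have hcardB : Nat.card B ≤ Nat.card (B ⊓ Subgroup.centralizer (W : Set G) : Subgroup G) * 2 := by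
      have h1 := Subgroup.card_le_of_le hle
      have h2 : Nat.card ((B ⊓ Subgroup.centralizer (W : Set G)) ⊔ Subgroup.zpowers b : Subgroup G)
          ≤ Nat.card ((B ⊓ Subgroup.centralizer (W : Set G)) ⊔ Subgroup.zpowers b : Subgroup G) *
            Nat.card ((B ⊓ Subgroup.centralizer (W : Set G)) ⊓ Subgroup.zpowers b : Subgroup G) :=
        Nat.le_mul_of_pos_right _ hpos1
      rw [hc1] at h2
      have h3 := Nat.mul_le_mul_left
        (Nat.card (B ⊓ Subgroup.centralizer (W : Set G) : Subgroup G)) hzb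
      omega
    have hinfle : (B ⊓ Subgroup.centralizer (W : Set G)) ⊓ W ≤ Subgroup.zpowers a := by
      intro u hu
      obtain ⟨hu1, huW⟩ := Subgroup.mem_inf.1 hu
      have huB : u ∈ B := (Subgroup.mem_inf.1 hu1).1
      have hub : b * u * b⁻¹ = u := by
        rw [hBcomm b hbB u huB]
        group
      rcases hfour u huW with h | h | h | h
      · rw [h]; exact Subgroup.one_mem _
      · rw [h]; exact Subgroup.mem_zpowers a
      · exfalso
        rw [h] at hub
        rw [hub] at hbw₀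
        have h0 : a = (a * w₀) * w₀⁻¹ := by group
        rw [← hbw₀] at h0
        apply ha1
        rw [h0]
        group
      · exfalso
        rw [h] at hub
        have h0 : b * (a * w₀) * b⁻¹ = (b * a * b⁻¹) * (b * w₀ * b⁻¹) := by group
        rw [h0, hconja b hbB, hbw₀] at hub
        have h1 : a * (a * w₀) = (a * a) * w₀ := by group
        rw [h1, ha2, one_mul] at hub
        apply ha1
        have h2 : a = (a * w₀) * w₀⁻¹ := by group
        rw [h2, ← hub]
        group
    have hza : Nat.card (Subgroup.zpowers a) ≤ 2 := by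
      rw [Nat.card_zpowers]
      exact orderOf_le_of_pow_eq_one (by norm_num) (by rw [pow_two]; exact ha2)
    have hinf2 : Nat.card ((B ⊓ Subgroup.centralizer (W : Set G)) ⊓ W : Subgroup G) ≤ 2 :=
      (Subgroup.card_le_of_le hinfle).trans hza
    have hnorm2 : (B ⊓ Subgroup.centralizer (W : Set G) : Subgroup G) ≤
        Subgroup.normalizer (W : Set G) := inf_le_left.trans hBW
    have hc2 := Helper4.card_sup_mul_card_inf (B ⊓ Subgroup.centralizer (W : Set G)) W hnorm2
    rw [hW4] at hc2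
    have h4 := Nat.mul_le_mul_left
      (Nat.card ((B ⊓ Subgroup.centralizer (W : Set G)) ⊔ W : Subgroup G)) hinf2
    rw [hc2] at h4
    omega

end Cfsg.Agent.Helper17
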