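import Mathlib
import Cfsg.Agent.Helper17.JComp3

set_option autoImplicit false

namespace Cfsg.Agent.Helper17

open Cfsg
open scoped commutatorElement

universe u

variable {G : Type u} [Group G]

structure JCS (T J K W S : Subgroup G) (m : ℕ) : Prop where
  hJS : J ≤ S
  hDS : (K ⊔ J) ⊓ Subgroup.centralizer (W : Set G) ≤ S
  hSJ : S ≤ Subgroup.normalizer (J : Set G)
  hEJ : ∀ E : Subgroup G, E ≤ S → IsElementaryAbelian 2 E → m ≤ Nat.card E → E ≤ J
  hself : ∀ E U : Subgroup G, E ≤ S → IsElementaryAbelian 2 E → m ≤ Nat.card E → U ≤ S →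
    IsElementaryAbelian 2 U → U ≤ Subgroup.centralizer (E : Set G) → U ≤ E
  hT : ∀ B ∈ Helper27.maxElAbIn 2 T, Nat.card B = m

theorem JCData.exists_JCS [Finite G] {J K Q V W : Subgroup G} {k : G} (T : Subgroup G)
    (h : JCData J K Q V W k) (hJeq : J = sSup (Helper27.maxElAbIn 2 T))
    (hS4 : ∀ S : Subgroup G, IsSylowTwoIn S (K ⊔ J) → J ≤ S →
      sSup (Helper27.maxElAbIn 2 S) = J) :
    ∃ S m, JCS T J K W S m := by
  have hD2 := h.isPGroup_D
  have hXD := h.X_le_normalizer_D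
  have hJD2 : IsPGroup 2 (J ⊔ ((K ⊔ J) ⊓ Subgroup.centralizer (W : Set G)) : Subgroup G) :=
    IsPGroup.to_sup_of_normal_right' h.hJ2 hD2 (le_sup_right.trans hXD)
  obtain ⟨S, hSyl, hle⟩ := exists_isSylowTwoIn_ge _ (K ⊔ J) hJD2 (sup_le le_sup_right inf_le_left)
  have hJS : J ≤ S := le_sup_left.trans hle
  have hDS : (K ⊔ J) ⊓ Subgroup.centralizer (W : Set G) ≤ S := le_sup_right.trans hle
  have hSJ' : sSup (Helper27.maxElAbIn 2 S) = J := hS4 S hSyl hJS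
  obtain ⟨A, hA⟩ := Helper27.exists_mem_maxElAbIn 2 T
  obtain ⟨A', hA'⟩ := Helper27.exists_mem_maxElAbIn 2 S
  have hA'J : A' ≤ J := by rw [← hSJ']; exact le_sSup hA'
  have hJT : J ≤ T := by rw [hJeq]; exact sSup_le (fun B hB => hB.1)
  have hAJ : A ≤ J := by rw [hJeq]; exact le_sSup hA
  have h1 : Nat.card A' ≤ Nat.card A := hA.2.2 A' (hA'J.trans hJT) hA'.2.1
  have h2 : Nat.card A ≤ Nat.card A' := hA'.2.2 A (hAJ.trans hJS) hA.2.1
  have hcard : ∀ E : Subgroup G, E ≤ S → IsElementaryAbelian 2 E → Nat.card E ≤ Nat.card A :=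
    fun E hES hE => (hA'.2.2 E hES hE).trans h1
  refine ⟨S, Nat.card A, ⟨hJS, hDS, ?_, ?_, ?_, ?_⟩⟩
  · intro s hs
    apply mem_normalizer_of_map_conj_eq
    have h3 := Helper27.sSup_maxElAbIn_map 2 (MulAut.conj s) S
    rw [map_conj_eq_of_mem_normalizer S (Subgroup.le_normalizer hs), hSJ'] at h3
    exact h3.symm
  · intro E hES hE hm
    rw [← hSJ']
    exact le_sSup ⟨hES, hE, fun B hB hBel => (hcard B hB hBel).trans hm⟩
  · intro E U hES hE hm hUS hU hUE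
    have hsup : IsElementaryAbelian 2 (E ⊔ U : Subgroup G) :=
      Helper4.isElementaryAbelian_sup hE hU hUE
    have h3 : Nat.card (E ⊔ U : Subgroup G) ≤ Nat.card E :=
      (hcard _ (sup_le hES hUS) hsup).trans hm
    have h4 : E = E ⊔ U := Subgroup.eq_of_le_of_card_ge le_sup_left h3
    rw [h4]
    exact le_sup_right
  · intro B hB
    exact le_antisymm (hA.2.2 B hB.1 hB.2.1) (hB.2.2 A hA.1 hA.2.1)

theorem JCData.star_mem [Finite G] {J K Q V W S : Subgroup G} {k : G} {m : ℕ} (T : Subgroup G)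
    (h : JCData J K Q V W k) (hS : JCS T J K W S m)
    (hJeq : J = sSup (Helper27.maxElAbIn 2 T)) {a : G} (ha : a ∈ W) (ha1 : a ≠ 1)
    (hac : ∀ j ∈ J, j * a = a * j) {B : Subgroup G} (hB : B ∈ Helper27.maxElAbIn 2 T)
    (hBC : ¬ B ≤ Subgroup.centralizer (W : Set G)) :
    (B ⊓ Subgroup.centralizer (W : Set G)) ⊔ W ≤ (K ⊔ J) ⊓ Subgroup.centralizer (W : Set G) ∧
      IsElementaryAbelian 2 ((B ⊓ Subgroup.centralizer (W : Set G)) ⊔ W : Subgroup G) ∧
      m ≤ Nat.card ((B ⊓ Subgroup.centralizer (W : Set G)) ⊔ W : Subgroup G) := by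
  have hBJ : B ≤ J := by rw [hJeq]; exact le_sSup hB
  have hstar := four_group_star W B h.hW4 h.hW2 hB.2.1 (hBJ.trans h.hJW) hBC ha ha1
    (fun x hx => hac x (hBJ hx))
  have hWc := comm_of_sq_eq_one W h.hW2
  refine ⟨sup_le ?_ ?_, hstar.1, ?_⟩
  · exact inf_le_inf_right _ (hBJ.trans le_sup_right)
  · refine le_inf ((h.hWV.trans (h.hVQ.trans h.hQK)).trans le_sup_left) ?_
    intro w hw
    rw [Subgroup.mem_centralizer_iff]
    intro u hu
    exact hWc u hu w hw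
  · rw [← hS.hT B hB]
    exact hstar.2

theorem JCData.W_le_J [Finite G] {J K Q V W S : Subgroup G} {k : G} {m : ℕ} (T : Subgroup G)
    (h : JCData J K Q V W k) (hS : JCS T J K W S m)
    (hJeq : J = sSup (Helper27.maxElAbIn 2 T)) : W ≤ J := by
  obtain ⟨a, ha, ha1, hac⟩ := h.exists_fixed
  have hex : ∃ B ∈ Helper27.maxElAbIn 2 T, ¬ B ≤ Subgroup.centralizer (W : Set G) := by
    by_contra hcon
    push Not at hcon
    apply h.not_J_le_centralizer
    rw [hJeq]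
    exact sSup_le hcon
  obtain ⟨B, hB, hBC⟩ := hex
  obtain ⟨h1, h2, h3⟩ := h.star_mem T hS hJeq ha ha1 hac hB hBC
  exact le_sup_right.trans (hS.hEJ _ (h1.trans hS.hDS) h2 h3)

theorem JCData.card_inf [Finite G] {J K Q V W : Subgroup G} {k : G}
    (h : JCData J K Q V W k) (hWJ : W ≤ J) :
    Nat.card (omegaCenterOf J ⊓ W : Subgroup G) = 2 := by
  obtain ⟨a, ha, ha1, hac⟩ := h.exists_fixed
  have hdvd : Nat.card (omegaCenterOf J ⊓ W : Subgroup G) ∣ 4 := by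
    rw [← h.hW4]
    exact Subgroup.card_dvd_of_le inf_le_right
  have hne1 : Nat.card (omegaCenterOf J ⊓ W : Subgroup G) ≠ 1 := by
    intro h1
    rw [Subgroup.card_eq_one] at h1
    have ha' : a ∈ omegaCenterOf J ⊓ W :=
      Subgroup.mem_inf.2 ⟨(mem_omegaCenterOf_iff J a).2 ⟨hWJ ha, hac, h.hW2 a ha⟩, ha⟩
    rw [h1, Subgroup.mem_bot] at ha'
    exact ha1 ha'
  have hne4 : Nat.card (omegaCenterOf J ⊓ W : Subgroup G) ≠ 4 := by
    intro h4
    have heq : omegaCenterOf J ⊓ W = W :=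
      Subgroup.eq_of_le_of_card_ge inf_le_right (by rw [h4, h.hW4])
    apply h.not_J_le_centralizer
    intro j hj
    rw [Subgroup.mem_centralizer_iff]
    intro w hw
    have hw' : w ∈ omegaCenterOf J ⊓ W := by rw [heq]; exact hw
    exact (((mem_omegaCenterOf_iff J w).1 (Subgroup.mem_inf.1 hw').1).2.1 j hj).symm
  have h4 : (4 : ℕ) = 2 ^ 2 := by norm_num
  rw [h4] at hdvd
  obtain ⟨i, hi, hi2⟩ := (Nat.dvd_prime_pow Nat.prime_two).1 hdvd
  interval_cases i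
  · exact absurd hi2 hne1
  · exact hi2
  · exact absurd hi2 hne4

theorem JCData.comm_mem_W [Finite G] {J K Q V W S : Subgroup G} {k : G} {m : ℕ} (T : Subgroup G)
    (h : JCData J K Q V W k) (hS : JCS T J K W S m)
    (hJeq : J = sSup (Helper27.maxElAbIn 2 T)) :
    ∀ z ∈ omegaCenterOf J, ∀ κ ∈ K, κ * z * κ⁻¹ * z⁻¹ ∈ W := by
  obtain ⟨a, ha, ha1, hac⟩ := h.exists_fixed
  have hXW := h.X_le_normalizer_W
  have hXD := h.X_le_normalizer_D
  obtain ⟨AD, hAD⟩ : ∃ AD : Set (Subgroup G), AD = {E | E ≤ (K ⊔ J) ⊓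
      Subgroup.centralizer (W : Set G) ∧ IsElementaryAbelian 2 E ∧ m ≤ Nat.card E} := ⟨_, rfl⟩
  have hZM : omegaCenterOf J ≤ sInf AD := by
    apply le_sInf
    intro E hE
    rw [hAD] at hE
    obtain ⟨hED, hEel, hEm⟩ := hE
    have hEJ : E ≤ J := hS.hEJ E (hED.trans hS.hDS) hEel hEm
    intro z hz
    obtain ⟨hzJ, hzc, hz2⟩ := (mem_omegaCenterOf_iff J z).1 hz
    have hU : IsElementaryAbelian 2 (Subgroup.zpowers z) :=
      Helper4.isElementaryAbelian_zpowers z (by rw [pow_two]; exact hz2)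
    have hUS : Subgroup.zpowers z ≤ S := (Subgroup.zpowers_le.2 (hS.hJS hzJ))
    have hUE : Subgroup.zpowers z ≤ Subgroup.centralizer (E : Set G) := by
      rw [Subgroup.zpowers_le, Subgroup.mem_centralizer_iff]
      intro e he
      exact hzc e (hEJ he)
    exact hS.hself E _ (hED.trans hS.hDS) hEel hEm hUS hU hUE (Subgroup.mem_zpowers z)
  have hMinv : ∀ x ∈ K ⊔ J, ∀ y ∈ sInf AD, x⁻¹ * y * x ∈ sInf AD := by
    intro x hx y hy
    rw [Subgroup.mem_sInf] at hy ⊢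
    intro E hE
    have hE' : E.map (MulAut.conj x).toMonoidHom ∈ AD := by
      rw [hAD] at hE ⊢
      obtain ⟨hED, hEel, hEm⟩ := hE
      refine ⟨?_, Helper4.isElementaryAbelian_map _ hEel, ?_⟩
      · rintro _ ⟨e, he, rfl⟩
        exact (Subgroup.mem_normalizer_iff.1 (hXD hx) e).1 (hED he)
      · rw [card_map_conj]
        exact hEm
    have h1 := hy _ hE'
    rw [mem_map_conj] at h1
    exact h1
  let Csub : Subgroup G :=
    { carrier := {x | x ∈ K ⊔ J ∧ ∀ y ∈ sInf AD, x * y * x⁻¹ * y⁻¹ ∈ W}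
      one_mem' := ⟨Subgroup.one_mem _, fun y _ => by simp⟩
      mul_mem' := by
        rintro x₁ x₂ ⟨hx₁, h₁⟩ ⟨hx₂, h₂⟩
        refine ⟨Subgroup.mul_mem _ hx₁ hx₂, ?_⟩
        intro y hy
        have e : x₁ * x₂ * y * (x₁ * x₂)⁻¹ * y⁻¹ =
            x₁ * (x₂ * y * x₂⁻¹ * y⁻¹) * x₁⁻¹ * (x₁ * y * x₁⁻¹ * y⁻¹) := by group
        rw [e]
        exact W.mul_mem ((Subgroup.mem_normalizer_iff.1 (hXW hx₁) _).1 (h₂ y hy)) (h₁ y hy)
      inv_mem' := by
        rintro x ⟨hx, h₁⟩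
        refine ⟨Subgroup.inv_mem _ hx, ?_⟩
        intro y hy
        have e : x⁻¹ * y * x⁻¹⁻¹ * y⁻¹ = x⁻¹ * (x * y * x⁻¹ * y⁻¹)⁻¹ * x⁻¹⁻¹ := by group
        rw [e]
        exact (Subgroup.mem_normalizer_iff.1 (hXW (Subgroup.inv_mem _ hx)) _).1
          (W.inv_mem (h₁ y hy)) }
  have hCinv : ∀ κ ∈ K ⊔ J, ∀ x ∈ Csub, κ * x * κ⁻¹ ∈ Csub := by
    rintro κ hκ x ⟨hx, h₁⟩
    refine ⟨Subgroup.mul_mem _ (Subgroup.mul_mem _ hκ hx) (Subgroup.inv_mem _ hκ), ?_⟩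
    intro y hy
    have e : κ * x * κ⁻¹ * y * (κ * x * κ⁻¹)⁻¹ * y⁻¹ =
        κ * (x * (κ⁻¹ * y * κ) * x⁻¹ * (κ⁻¹ * y * κ)⁻¹) * κ⁻¹ := by group
    rw [e]
    exact (Subgroup.mem_normalizer_iff.1 (hXW hκ) _).1 (h₁ _ (hMinv κ hκ y hy))
  have hJC : J ≤ Csub := by
    rw [hJeq]
    apply sSup_le
    intro B hB x hx
    have hBJ : B ≤ J := by rw [hJeq]; exact le_sSup hB
    have hBcomm : ∀ x ∈ B, ∀ y ∈ B, x * y = y * x := by
      intro x hx y hy
      have h0 := Subgroup.le_centralizer_iff_isMulCommutative.2 hB.2.1.1 hy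
      exact (Subgroup.mem_centralizer_iff.1 h0) x hx
    refine ⟨le_sup_right (α := Subgroup G) (hBJ hx), ?_⟩
    intro y hy
    by_cases hBC : B ≤ Subgroup.centralizer (W : Set G)
    · have hBAD : B ∈ AD := by
        rw [hAD]
        exact ⟨le_inf (hBJ.trans le_sup_right) hBC, hB.2.1, (hS.hT B hB).ge⟩
      have hyB : y ∈ B := (Subgroup.mem_sInf.1 hy) B hBAD
      have e : x * y * x⁻¹ * y⁻¹ = 1 := by
        rw [hBcomm x hx y hyB]
        group
      rw [e]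
      exact W.one_mem
    · obtain ⟨h1, h2, h3⟩ := h.star_mem T hS hJeq ha ha1 hac hB hBC
      have hstarAD : (B ⊓ Subgroup.centralizer (W : Set G)) ⊔ W ∈ AD := by
        rw [hAD]
        exact ⟨h1, h2, h3⟩
      have hy' := (Subgroup.mem_sInf.1 hy) _ hstarAD
      have hnorm : (B ⊓ Subgroup.centralizer (W : Set G) : Subgroup G) ≤
          Subgroup.normalizer (W : Set G) := inf_le_left.trans (hBJ.trans h.hJW)
      obtain ⟨β, hβ, w, hw, rfl⟩ := Helper16.mem_sup_of_le_normalizer hnorm hy'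
      have hβB : β ∈ B := (Subgroup.mem_inf.1 hβ).1
      have hxβ := hBcomm x hx β hβB
      have e : x * (β * w) * x⁻¹ * (β * w)⁻¹ = β * (x * w * x⁻¹ * w⁻¹) * β⁻¹ := by
        calc x * (β * w) * x⁻¹ * (β * w)⁻¹ = (x * β) * w * x⁻¹ * w⁻¹ * β⁻¹ := by group
          _ = (β * x) * w * x⁻¹ * w⁻¹ * β⁻¹ := by rw [hxβ]
          _ = β * (x * w * x⁻¹ * w⁻¹) * β⁻¹ := by group
      rw [e]
      have hxw : x * w * x⁻¹ ∈ W := (Subgroup.mem_normalizer_iff.1 (h.hJW (hBJ hx)) w).1 hw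
      exact (Subgroup.mem_normalizer_iff.1 (hnorm hβ) _).1 (W.mul_mem hxw (W.inv_mem hw))
  have hKC : ⁅K, J⁆ ≤ Csub := by
    rw [Subgroup.commutator_le]
    intro κ hκ j hj
    rw [commutatorElement_def]
    exact Csub.mul_mem (hCinv κ (Subgroup.mem_sup_left hκ) j (hJC hj)) (Csub.inv_mem (hJC hj))
  intro z hz κ hκ
  exact (hKC (h.hKJ.ge hκ)).2 z (hZM hz)

end Cfsg.Agent.Helper17
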