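import Mathlib
import Cfsg.Agent.Helper17.JComp4

set_option autoImplicit false

namespace Cfsg.Agent.Helper17

open Cfsg
open scoped commutatorElement

universe u

variable {G : Type u} [Group G]

theorem JCData.final [Finite G] {J K Q V W S : Subgroup G} {k : G} {m : ℕ} (T : Subgroup G)
    (h : JCData J K Q V W k) (hS : JCS T J K W S m)
    (hcomm : ∀ z ∈ omegaCenterOf J, ∀ κ ∈ K, κ * z * κ⁻¹ * z⁻¹ ∈ W) (hWJ : W ≤ J)
    (hcard : Nat.card (omegaCenterOf J ⊓ W : Subgroup G) = 2) :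
    (omegaCenterOf J ⊓ ((K ⊔ J) ⊓ Subgroup.centralizer ((K : Set G) ⊔ (J : Set G)))) ⊔
      (omegaCenterOf J ⊓ W) = omegaCenterOf J := by
  apply le_antisymm (sup_le inf_le_left inf_le_left)
  intro z hz
  obtain ⟨hzJ, hzc, hz2⟩ := (mem_omegaCenterOf_iff J z).1 hz
  have hW2 := h.hW2
  have hWc := comm_of_sq_eq_one W hW2
  have hk := h.hk
  have hk3' : k * k * k = 1 := by rw [← h.hk3, pow_succ, pow_two]
  obtain ⟨z₁, hz₁⟩ : ∃ x, x = k * z * k⁻¹ := ⟨_, rfl⟩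
  obtain ⟨z₂, hz₂⟩ : ∃ x, x = k * z₁ * k⁻¹ := ⟨_, rfl⟩
  have hz₃ : k * z₂ * k⁻¹ = z := by
    rw [hz₂, hz₁]
    have h0 : k * (k * (k * z * k⁻¹) * k⁻¹) * k⁻¹ = (k * k * k) * z * (k * k * k)⁻¹ := by group
    rw [h0, hk3']
    simp
  obtain ⟨w₁, hw₁⟩ : ∃ x, x = z₁ * z⁻¹ := ⟨_, rfl⟩
  obtain ⟨w₂, hw₂⟩ : ∃ x, x = z₂ * z⁻¹ := ⟨_, rfl⟩
  have hw₁W : w₁ ∈ W := by
    rw [hw₁, hz₁]
    exact hcomm z hz k hk
  have hw₂W : w₂ ∈ W := by
    have h0 := hcomm z hz (k * k) (K.mul_mem hk hk)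
    have e : k * k * z * (k * k)⁻¹ * z⁻¹ = w₂ := by rw [hw₂, hz₂, hz₁]; group
    rw [e] at h0
    exact h0
  obtain ⟨w, hw⟩ : ∃ x, x = w₁ * w₂ := ⟨_, rfl⟩
  have hwW : w ∈ W := by rw [hw]; exact W.mul_mem hw₁W hw₂W
  obtain ⟨c, hc⟩ : ∃ x, x = w * z := ⟨_, rfl⟩
  have hkc : k * c * k⁻¹ = c := by
    have hinv : w₁⁻¹ = w₁ := inv_eq_of_mul_eq_one_left (hW2 w₁ hw₁W)
    have e1 : k * c * k⁻¹ = (k * z₁ * k⁻¹) * (k * z * k⁻¹)⁻¹ * (k * z₂ * k⁻¹) := by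
      rw [hc, hw, hw₁, hw₂]; group
    rw [e1, ← hz₂, ← hz₁, hz₃]
    have e2 : z₂ * z₁⁻¹ * z = (z₂ * z⁻¹) * (z₁ * z⁻¹)⁻¹ * z := by group
    rw [e2, ← hw₂, ← hw₁, hinv, hWc w₂ hw₂W w₁ hw₁W, hc, hw]
  have hZ₀norm : ∀ s ∈ S, ∀ x ∈ omegaCenterOf J, s * x * s⁻¹ ∈ omegaCenterOf J :=
    fun s hs x hx => (Subgroup.mem_normalizer_iff.1
      (normalizer_le_normalizer_omegaCenterOf J (hS.hSJ hs)) x).1 hx
  have hQS : Q ≤ S := fun q hq => hS.hDS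
    (Subgroup.mem_inf.2 ⟨Subgroup.mem_sup_left (h.hQK hq), h.Q_le_centralizer hq⟩)
  have hu : ∀ q ∈ Q, q * c * q⁻¹ * c⁻¹ ∈ omegaCenterOf J ⊓ W := by
    intro q hq
    have hqw : q * w = w * q := h.hVc w (h.hWV hwW) q hq
    have hu1 : q * z * q⁻¹ * z⁻¹ ∈ W := hcomm z hz q (h.hQK hq)
    have e : q * c * q⁻¹ * c⁻¹ = q * z * q⁻¹ * z⁻¹ := by
      calc q * c * q⁻¹ * c⁻¹ = (q * w) * z * q⁻¹ * z⁻¹ * w⁻¹ := by rw [hc]; group
        _ = (w * q) * z * q⁻¹ * z⁻¹ * w⁻¹ := by rw [hqw]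
        _ = w * (q * z * q⁻¹ * z⁻¹) * w⁻¹ := by group
        _ = (q * z * q⁻¹ * z⁻¹) * w * w⁻¹ := by rw [hWc w hwW _ hu1]
        _ = q * z * q⁻¹ * z⁻¹ := by group
    rw [e]
    refine Subgroup.mem_inf.2 ⟨?_, hu1⟩
    exact Subgroup.mul_mem _ (hZ₀norm q (hQS hq) z hz) (Subgroup.inv_mem _ hz)
  have hcQ : ∀ q ∈ Q, q * c = c * q := by
    intro q hq
    by_contra hne
    have hu1 := hu q hq
    have hkq : k * q * k⁻¹ ∈ Q := (Subgroup.mem_normalizer_iff.1 (h.hKQ hk) q).1 hq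
    have hu2 := hu _ hkq
    have e : k * (q * c * q⁻¹ * c⁻¹) * k⁻¹ = k * q * k⁻¹ * c * (k * q * k⁻¹)⁻¹ * c⁻¹ := by
      have e0 : k * (q * c * q⁻¹ * c⁻¹) * k⁻¹ =
          k * q * k⁻¹ * (k * c * k⁻¹) * (k * q * k⁻¹)⁻¹ * (k * c * k⁻¹)⁻¹ := by group
      rw [e0, hkc]
    rw [← e] at hu2
    have hune : q * c * q⁻¹ * c⁻¹ ≠ 1 := by
      intro h1
      apply hne
      have h0 : q * c = (q * c * q⁻¹ * c⁻¹) * c * q := by group
      rw [h0, h1, one_mul]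
    have hune2 : k * (q * c * q⁻¹ * c⁻¹) * k⁻¹ ≠ 1 := by
      intro h1
      apply hune
      have h0 : q * c * q⁻¹ * c⁻¹ = k⁻¹ * (k * (q * c * q⁻¹ * c⁻¹) * k⁻¹) * k := by group
      rw [h0, h1]
      group
    have heq := card_two_unique _ hcard hu2 hu1 hune2 hune
    exact hune (h.hfpf _ (Subgroup.mem_inf.1 hu1).2 heq)
  have hcK : ∀ κ ∈ K, κ * c = c * κ := by
    have hle : K ≤ Subgroup.centralizer ({c} : Set G) := by
      refine h.hKk.trans (sup_le ?_ ?_)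
      · intro q hq
        rw [Subgroup.mem_centralizer_iff]
        intro x hx
        rw [Set.mem_singleton_iff] at hx
        rw [hx]
        exact (hcQ q hq).symm
      · rw [Subgroup.zpowers_le, Subgroup.mem_centralizer_iff]
        intro x hx
        rw [Set.mem_singleton_iff] at hx
        rw [hx]
        calc c * k = (k * c * k⁻¹) * k := by rw [hkc]
          _ = k * c := by group
    intro κ hκ
    exact ((Subgroup.mem_centralizer_iff.1 (hle hκ)) c (Set.mem_singleton c)).symm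
  have hcJ : ∀ j ∈ J, j * c = c * j := by
    intro j hj
    obtain ⟨t, ht⟩ : ∃ x, x = j * c * j⁻¹ * c⁻¹ := ⟨_, rfl⟩
    have hjz : j * z = z * j := hzc j hj
    have hjz' : z * j⁻¹ = j⁻¹ * z := by
      calc z * j⁻¹ = j⁻¹ * (j * z) * j⁻¹ := by group
        _ = j⁻¹ * (z * j) * j⁻¹ := by rw [hjz]
        _ = j⁻¹ * z := by group
    have htW : t ∈ W := by
      have e : t = (j * w * j⁻¹) * w⁻¹ := by
        rw [ht, hc]
        calc j * (w * z) * j⁻¹ * (w * z)⁻¹ = j * w * (z * j⁻¹) * z⁻¹ * w⁻¹ := by group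
          _ = j * w * (j⁻¹ * z) * z⁻¹ * w⁻¹ := by rw [hjz']
          _ = j * w * j⁻¹ * w⁻¹ := by group
      rw [e]
      exact W.mul_mem ((Subgroup.mem_normalizer_iff.1 (h.hJW hj) w).1 hwW) (W.inv_mem hwW)
    have hkt : k * t * k⁻¹ = t := by
      have hk' : j⁻¹ * k * j ∈ K := ((Subgroup.mem_normalizer_iff''.1 (h.hJK hj)) k).1 hk
      have h1 := hcK _ hk'
      have h2 := hcK k hk
      have h3 : k * (j * c * j⁻¹) = (j * c * j⁻¹) * k := by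
        calc k * (j * c * j⁻¹) = j * (j⁻¹ * k * j * c) * j⁻¹ := by group
          _ = j * (c * (j⁻¹ * k * j)) * j⁻¹ := by rw [h1]
          _ = (j * c * j⁻¹) * k := by group
      have h4 : k * c⁻¹ = c⁻¹ * k := by
        calc k * c⁻¹ = c⁻¹ * (c * k) * c⁻¹ := by group
          _ = c⁻¹ * (k * c) * c⁻¹ := by rw [h2]
          _ = c⁻¹ * k := by group
      rw [ht]
      calc k * (j * c * j⁻¹ * c⁻¹) * k⁻¹ = (k * (j * c * j⁻¹)) * c⁻¹ * k⁻¹ := by group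
        _ = (j * c * j⁻¹) * (k * c⁻¹) * k⁻¹ := by rw [h3]; group
        _ = (j * c * j⁻¹) * (c⁻¹ * k) * k⁻¹ := by rw [h4]
        _ = j * c * j⁻¹ * c⁻¹ := by group
    have ht1 := h.hfpf t htW hkt
    rw [ht] at ht1
    calc j * c = (j * c * j⁻¹ * c⁻¹) * c * j := by group
      _ = c * j := by rw [ht1, one_mul]
  have hwJ : w ∈ J := hWJ hwW
  have hzw : w * z = z * w := hzc w hwJ
  have hcJmem : c ∈ J := by rw [hc]; exact J.mul_mem hwJ hzJ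
  have hc2 : c * c = 1 := by
    rw [hc]
    calc w * z * (w * z) = w * (z * w) * z := by group
      _ = w * (w * z) * z := by rw [hzw]
      _ = (w * w) * (z * z) := by group
      _ = 1 := by rw [hW2 w hwW, hz2, one_mul]
  have hcZ : c ∈ omegaCenterOf J := (mem_omegaCenterOf_iff J c).2 ⟨hcJmem, hcJ, hc2⟩
  have hcX : c ∈ (K ⊔ J) ⊓ Subgroup.centralizer ((K : Set G) ⊔ (J : Set G)) := by
    refine Subgroup.mem_inf.2 ⟨Subgroup.mem_sup_right hcJmem, ?_⟩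
    rw [Subgroup.mem_centralizer_iff]
    rintro x (hx | hx)
    · exact hcK x hx
    · exact hcJ x hx
  have hwZ : w ∈ omegaCenterOf J := by
    have e : w = c * z⁻¹ := by rw [hc]; group
    rw [e]
    exact Subgroup.mul_mem _ hcZ (Subgroup.inv_mem _ hz)
  have e : z = c * w⁻¹ := by
    rw [hc, hzw]; group
  rw [e]
  exact Subgroup.mul_mem_sup (Subgroup.mem_inf.2 ⟨hcZ, hcX⟩)
    (Subgroup.inv_mem _ (Subgroup.mem_inf.2 ⟨hwZ, hwW⟩))

theorem jcomponent_split [Finite G] (T K : Subgroup G) (hT : IsPGroup 2 T)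
    (hK : IsJComponent T K) :
    Nat.card (omegaCenterOf (thompsonSubgroupOf 2 T) ⊓ wOf K : Subgroup G) = 2 ∧
      (omegaCenterOf (thompsonSubgroupOf 2 T) ⊓ ((K ⊔ thompsonSubgroupOf 2 T) ⊓
        Subgroup.centralizer ((K : Set G) ⊔ (thompsonSubgroupOf 2 T : Set G)))) ⊔
        (omegaCenterOf (thompsonSubgroupOf 2 T) ⊓ wOf K) =
      omegaCenterOf (thompsonSubgroupOf 2 T) := by
  obtain ⟨k, h⟩ := jcData_of_isJComponent T K hT hK
  have hJeq := Helper27.thompsonSubgroupOf_eq 2 T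
  have hS4 : ∀ S : Subgroup G, IsSylowTwoIn S (K ⊔ thompsonSubgroupOf 2 T) →
      thompsonSubgroupOf 2 T ≤ S → sSup (Helper27.maxElAbIn 2 S) = thompsonSubgroupOf 2 T := by
    intro S hS hJS
    rw [← Helper27.thompsonSubgroupOf_eq 2 S]
    exact hK.2.2.2.1 S hS hJS
  obtain ⟨S, m, hS⟩ := h.exists_JCS T hJeq hS4
  have hWJ := h.W_le_J T hS hJeq
  have hcard := h.card_inf hWJ
  have hcomm := h.comm_mem_W T hS hJeq
  exact ⟨hcard, h.final T hS hcomm hWJ hcard⟩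

end Cfsg.Agent.Helper17
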