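import Mathlib

set_option autoImplicit false

open Matrix

namespace Cfsg.Agent.Helper17

/-- A skew-symmetric matrix over a field of characteristic not two has even rank. -/
theorem rank_even_of_skew {F : Type*} [Field F] (h2 : (2 : F) ≠ 0) {n : ℕ}
    (S : Matrix (Fin n) (Fin n) F) (hS : Sᵀ = -S) : Even S.rank := by
  classical
  obtain ⟨W, hW⟩ := Submodule.exists_isCompl (LinearMap.ker S.mulVecLin)
  have hrank : Module.finrank F W = S.rank := by
    have h1 := LinearMap.finrank_range_add_finrank_ker S.mulVecLin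
    have h2' := Submodule.finrank_add_eq_of_isCompl hW
    have h3 : S.rank = Module.finrank F (LinearMap.range S.mulVecLin) := rfl
    omega
  obtain ⟨r, hr⟩ : ∃ r, r = S.rank := ⟨_, rfl⟩
  rw [← hr]
  rw [← hr] at hrank
  obtain ⟨g, hg_inj, hg_mem, hg_surj⟩ : ∃ g : (Fin r → F) →ₗ[F] (Fin n → F),
      Function.Injective g ∧ (∀ x, g x ∈ W) ∧ ∀ u ∈ W, ∃ y, g y = u := by
    refine ⟨W.subtype ∘ₗ (Module.finBasisOfFinrankEq F W hrank).equivFun.symm.toLinearMap,
      ?_, ?_, ?_⟩
    · intro x y hxy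
      have h' : (((Module.finBasisOfFinrankEq F W hrank).equivFun.symm x : W) : Fin n → F)
          = (((Module.finBasisOfFinrankEq F W hrank).equivFun.symm y : W) : Fin n → F) := hxy
      exact (Module.finBasisOfFinrankEq F W hrank).equivFun.symm.injective (Subtype.ext h')
    · intro x
      exact ((Module.finBasisOfFinrankEq F W hrank).equivFun.symm x).2
    · intro u hu
      refine ⟨(Module.finBasisOfFinrankEq F W hrank).equivFun ⟨u, hu⟩, ?_⟩
      show (((Module.finBasisOfFinrankEq F W hrank).equivFun.symm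
        ((Module.finBasisOfFinrankEq F W hrank).equivFun ⟨u, hu⟩) : W) : Fin n → F) = u
      rw [LinearEquiv.symm_apply_apply]
  obtain ⟨Gm, hG⟩ : ∃ Gm : Matrix (Fin n) (Fin r) F, ∀ x, Gm *ᵥ x = g x :=
    ⟨LinearMap.toMatrix' g, fun x => by rw [← Matrix.toLin'_apply, Matrix.toLin'_toMatrix']⟩
  have hskew : (Gmᵀ * S * Gm)ᵀ = -(Gmᵀ * S * Gm) := by
    rw [Matrix.transpose_mul, Matrix.transpose_mul, Matrix.transpose_transpose, hS,
      Matrix.neg_mul, Matrix.mul_neg, Matrix.mul_assoc]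
  have hdet : (Gmᵀ * S * Gm).det ≠ 0 := by
    intro h0
    obtain ⟨x, hx0, hx⟩ := Matrix.exists_mulVec_eq_zero_iff.mpr h0
    have hw0 : g x ≠ 0 := by
      intro h
      apply hx0
      apply hg_inj
      rw [h, map_zero]
    have h1 : Gmᵀ *ᵥ (S *ᵥ (g x)) = 0 := by
      have e : (Gmᵀ * S * Gm) *ᵥ x = Gmᵀ *ᵥ (S *ᵥ (Gm *ᵥ x)) := by
        rw [← Matrix.mulVec_mulVec, ← Matrix.mulVec_mulVec]
      rw [← hG x, ← e]
      exact hx
    have hWz : ∀ u ∈ W, u ⬝ᵥ (S *ᵥ (g x)) = 0 := by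
      intro u hu
      obtain ⟨y, rfl⟩ := hg_surj u hu
      rw [← hG y, dotProduct_comm, Matrix.dotProduct_mulVec, ← Matrix.mulVec_transpose, h1,
        zero_dotProduct]
    have hker : ∀ u ∈ LinearMap.ker S.mulVecLin, u ⬝ᵥ (S *ᵥ (g x)) = 0 := by
      intro u hu
      have hSu : S *ᵥ u = 0 := by
        have h := LinearMap.mem_ker.mp hu
        rwa [Matrix.mulVecLin_apply] at h
      rw [Matrix.dotProduct_mulVec, ← Matrix.mulVec_transpose, hS, Matrix.neg_mulVec, hSu,
        neg_zero, zero_dotProduct]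
    have hall : ∀ v : Fin n → F, v ⬝ᵥ (S *ᵥ (g x)) = 0 := by
      intro v
      have hv : v ∈ LinearMap.ker S.mulVecLin ⊔ W := by
        rw [hW.sup_eq_top]; exact Submodule.mem_top
      obtain ⟨u₁, hu₁, u₂, hu₂, rfl⟩ := Submodule.mem_sup.mp hv
      rw [add_dotProduct, hker u₁ hu₁, hWz u₂ hu₂, add_zero]
    have hSw : S *ᵥ (g x) = 0 := by
      funext i
      have h := hall (Pi.single i 1)
      simpa using h
    have hmemker : g x ∈ LinearMap.ker S.mulVecLin := by
      rw [LinearMap.mem_ker, Matrix.mulVecLin_apply]; exact hSw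
    exact hw0 (Submodule.disjoint_def.mp hW.disjoint (g x) hmemker (hg_mem x))
  have h3 : (Gmᵀ * S * Gm).det = (-1) ^ r * (Gmᵀ * S * Gm).det := by
    have h := Matrix.det_transpose (Gmᵀ * S * Gm)
    rw [hskew, Matrix.det_neg, Fintype.card_fin] at h
    exact h.symm
  by_contra hodd
  rw [Nat.not_even_iff_odd] at hodd
  rw [hodd.neg_one_pow] at h3
  have h4 : (2 : F) * (Gmᵀ * S * Gm).det = 0 := by linear_combination h3
  rcases mul_eq_zero.mp h4 with h | h
  · exact h2 h
  · exact hdet h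

end Cfsg.Agent.Helper17
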