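import Cfsg.Agent.Helper17.Basic
import Cfsg.Agent.Helper17.StronglyEmb
import Cfsg.Agent.Helper17.RelSylow
import Cfsg.Agent.Helper17.SylIn
import Cfsg.Agent.Helper17.ZStarSyl

set_option autoImplicit false

namespace Cfsg.Agent.Helper17

variable {G : Type*} [Group G]

theorem se_conj_mem_normalizer_map_conj (Y : Subgroup G) (g : G) {n : G}
    (hn : n ∈ Subgroup.normalizer (Y : Set G)) :
    g * n * g⁻¹ ∈ Subgroup.normalizer ((Y.map (MulAut.conj g).toMonoidHom : Subgroup G) : Set G) := by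
  apply mem_normalizer_of_map_conj_eq
  rw [map_conj_map_conj]
  have e : g * n * g⁻¹ * g = g * n := by group
  rw [e, ← map_conj_map_conj, map_conj_eq_of_mem_normalizer Y hn]

/-- If `M` contains the normalizers of all its nontrivial `p`-subgroups, then `M` meets its
conjugates by outside elements in `p'`-groups. -/
theorem classSE_of_normalizer_le [Finite G] {p : ℕ} [Fact p.Prime] {M : Subgroup G}
    (hK : ∀ Y : Subgroup G, IsPGroup p Y → Y ≠ ⊥ → Y ≤ M → Subgroup.normalizer (Y : Set G) ≤ M) :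
    ClassSE p M := by
  classical
  intro g hg hdvd
  obtain ⟨X₀⟩ : Nonempty (Sylow p ↥(M ⊓ M.map (MulAut.conj g).toMonoidHom)) := inferInstance
  have hX₀1 : (X₀ : Subgroup ↥(M ⊓ M.map (MulAut.conj g).toMonoidHom)) ≠ ⊥ :=
    X₀.ne_bot_of_dvd_card hdvd
  obtain ⟨X, hXdef⟩ : ∃ X : Subgroup G,
      X = (X₀ : Subgroup ↥(M ⊓ M.map (MulAut.conj g).toMonoidHom)).map
        (M ⊓ M.map (MulAut.conj g).toMonoidHom).subtype := ⟨_, rfl⟩
  have hXD : X ≤ M ⊓ M.map (MulAut.conj g).toMonoidHom := by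
    rw [hXdef]; exact Subgroup.map_subtype_le _
  have hXp : IsPGroup p X := by rw [hXdef]; exact X₀.2.map _
  have hX1 : X ≠ ⊥ := by
    rw [hXdef, Ne, Subgroup.map_eq_bot_iff_of_injective _ (Subgroup.subtype_injective _)]
    exact hX₀1
  have hXcard : Nat.card X =
      p ^ (Nat.card ↥(M ⊓ M.map (MulAut.conj g).toMonoidHom)).factorization p := by
    rw [hXdef, Subgroup.card_subtype]; exact X₀.card_eq_multiplicity
  have hK' : ∀ Y : Subgroup G, IsPGroup p Y → Y ≠ ⊥ → Y ≤ M.map (MulAut.conj g).toMonoidHom →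
      Subgroup.normalizer (Y : Set G) ≤ M.map (MulAut.conj g).toMonoidHom := by
    intro Y hY hY1 hYM n hn
    rw [mem_map_conj]
    have h1 : Y.map (MulAut.conj g⁻¹).toMonoidHom ≤ M := by
      have h2 := Subgroup.map_mono (f := (MulAut.conj g⁻¹).toMonoidHom) hYM
      rwa [map_conj_map_conj, inv_mul_cancel, map_conj_one] at h2
    have h3 := hK _ (hY.map _) (by
      rw [Ne, Subgroup.map_eq_bot_iff_of_injective _ (MulAut.conj g⁻¹).injective]; exact hY1) h1
    have h4 := h3 (se_conj_mem_normalizer_map_conj Y g⁻¹ hn)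
    rwa [inv_inv] at h4
  obtain ⟨P₀, hP₀⟩ := (hXp.comap_subtype (K := M)).exists_le_sylow
  have hXP : X ≤ (P₀ : Subgroup ↥M).map M.subtype := by
    have h1 := Subgroup.map_mono (f := M.subtype) hP₀
    have h2 : (X.subgroupOf M).map M.subtype = X := Subgroup.map_subgroupOf_eq_of_le (hXD.trans inf_le_left)
    rw [← h2]; exact h1
  have hPp : IsPGroup p ((P₀ : Subgroup ↥M).map M.subtype) := P₀.2.map _
  have hXeq : X = (P₀ : Subgroup ↥M).map M.subtype := by
    by_contra hne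
    obtain ⟨x, hxP, hxX, hxN⟩ := exists_normalizer_mem_not_mem X _ hPp hXP hne
    have hxM : x ∈ M := hK X hXp hX1 (hXD.trans inf_le_left) hxN
    have hxM' : x ∈ M.map (MulAut.conj g).toMonoidHom := hK' X hXp hX1 (hXD.trans inf_le_right) hxN
    have hle : X ⊔ Subgroup.zpowers x ≤ M ⊓ M.map (MulAut.conj g).toMonoidHom :=
      sup_le hXD (Subgroup.zpowers_le.mpr ⟨hxM, hxM'⟩)
    have hp2 : IsPGroup p ↥(X ⊔ Subgroup.zpowers x : Subgroup G) :=
      IsPGroup.to_le hPp (sup_le hXP (Subgroup.zpowers_le.mpr hxP))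
    have h1 := card_le_of_isPGroup_le hp2 hle
    rw [← hXcard] at h1
    have h2 : X = X ⊔ Subgroup.zpowers x := Subgroup.eq_of_le_of_card_ge le_sup_left h1
    apply hxX
    rw [h2]
    exact Subgroup.mem_sup_right (Subgroup.mem_zpowers x)
  have hS1 : SylIn p X M := ⟨P₀, hXeq.symm⟩
  have hX'M : X.map (MulAut.conj g⁻¹).toMonoidHom ≤ M := by
    have h2 := Subgroup.map_mono (f := (MulAut.conj g⁻¹).toMonoidHom) (hXD.trans inf_le_right)
    rwa [map_conj_map_conj, inv_mul_cancel, map_conj_one] at h2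
  have hcard' : Nat.card ↥((X.map (MulAut.conj g⁻¹).toMonoidHom).subgroupOf M) =
      p ^ (Nat.card ↥M).factorization p := by
    rw [Nat.card_congr (Subgroup.subgroupOfEquivOfLe hX'M).toEquiv, card_map_conj, hXeq,
      Subgroup.card_subtype]
    exact P₀.card_eq_multiplicity
  have hS2 : SylIn p (X.map (MulAut.conj g⁻¹).toMonoidHom) M :=
    ⟨Sylow.ofCard _ hcard', by rw [Sylow.coe_ofCard, Subgroup.map_subgroupOf_eq_of_le hX'M]⟩
  obtain ⟨k, hkM, hk⟩ := hS1.exists_conj_eq hS2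
  have h1 := mem_normalizer_of_map_conj_eq_map_conj X hk
  have h2 := hK X hXp hX1 (hXD.trans inf_le_left) h1
  apply hg
  have h3 : g⁻¹ ∈ M := by
    have e : g⁻¹ = k * (k⁻¹ * g⁻¹) := by group
    rw [e]; exact M.mul_mem hkM h2
  simpa using M.inv_mem h3

end Cfsg.Agent.Helper17
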