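import Mathlib

set_option autoImplicit false

namespace Cfsg.Agent.Helper17

open Module in
/-- A finite field with a ring automorphism of prime order `s` whose only fixed points are
`0` and `1` has `2 ^ s` elements (Artin). -/
theorem zas_field_card (F : Type*) [Field F] [Finite F] (τ : F ≃+* F) (s : ℕ) (hs : s.Prime)
    (hτs : τ ^ s = 1) (hτ1 : τ ≠ 1) (hfix : ∀ x : F, τ x = x → x = 0 ∨ x = 1) :
    Nat.card F = 2 ^ s := by
  classical
  let T : Subgroup (F ≃+* F) := Subgroup.zpowers τ
  haveI : Finite (F ≃+* F) := Finite.of_injective (fun e : F ≃+* F => (e : F → F))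
    (fun a b h => RingEquiv.ext (congrFun h))
  letI : Fintype T := Fintype.ofFinite T
  letI : MulSemiringAction T F := MulSemiringAction.compHom F T.subtype
  have hsmul : ∀ (t : T) (x : F), t • x = (t : F ≃+* F) x := fun t x => rfl
  have hfaith : @FaithfulSMul T F (MulSemiringAction.compHom F T.subtype).toSMul :=
    ⟨fun {a b} h => Subtype.ext (RingEquiv.ext (fun x => h x))⟩
  have hrank : finrank (FixedPoints.subfield T F) F = Fintype.card T :=
    @FixedPoints.finrank_eq_card T F _ _ _ _ hfaith
  have hcardT : Fintype.card T = s := by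
    rw [← Nat.card_eq_fintype_card]
    show Nat.card (Subgroup.zpowers τ) = s
    rw [Nat.card_zpowers]
    haveI := Fact.mk hs
    exact orderOf_eq_prime hτs hτ1
  -- the fixed subfield has two elements
  have hmem : ∀ x : F, x ∈ FixedPoints.subfield T F ↔ (x = 0 ∨ x = 1) := by
    intro x
    constructor
    · intro hx
      have h1 : (⟨τ, Subgroup.mem_zpowers τ⟩ : T) • x = x := hx ⟨τ, Subgroup.mem_zpowers τ⟩
      exact hfix x h1
    · rintro (rfl | rfl)
      · exact zero_mem _
      · exact one_mem _
  have hcard2 : Nat.card (FixedPoints.subfield T F) = 2 := by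
    have e : (FixedPoints.subfield T F : Set F) = {0, 1} := by
      ext x
      simp only [SetLike.mem_coe, hmem, Set.mem_insert_iff, Set.mem_singleton_iff]
    have : Nat.card (FixedPoints.subfield T F) = Nat.card ((FixedPoints.subfield T F : Set F)) := rfl
    rw [this, e]
    rw [Nat.card_coe_set_eq, Set.ncard_pair zero_ne_one]
  have := Module.natCard_eq_pow_finrank (K := FixedPoints.subfield T F) (V := F)
  rw [this, hcard2, hrank, hcardT]

end Cfsg.Agent.Helper17
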