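import Mathlib
import Cfsg.Agent.Helper17.Zas1

set_option autoImplicit false

namespace Cfsg.Agent.Helper17

/-- Variant of `zas_field_card` for a finite commutative domain. -/
theorem zas_domain_card (F : Type*) [CommRing F] [IsDomain F] [Finite F] (τ : F ≃+* F) (s : ℕ)
    (hs : s.Prime) (hτs : τ ^ s = 1) (hτ1 : τ ≠ 1) (hfix : ∀ x : F, τ x = x → x = 0 ∨ x = 1) :
    Nat.card F = 2 ^ s := by
  classical
  letI : Fintype F := Fintype.ofFinite F
  letI : Field F := Fintype.fieldOfDomain F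
  exact zas_field_card F τ s hs hτs hτ1 hfix

theorem zas_ring_card (M : Type*) [AddCommGroup M] [Finite M]
    (𝒦 : Subgroup (AddMonoid.End M)ˣ)
    (hcomm : ∀ a ∈ 𝒦, ∀ b ∈ 𝒦, a * b = b * a) (v : M) (hv : v ≠ 0)
    (htr : ∀ x : M, x ≠ 0 → ∃ k ∈ 𝒦, (k : AddMonoid.End M) v = x)
    (η : (AddMonoid.End M)ˣ) (hη : ∀ k ∈ 𝒦, η * k * η⁻¹ ∈ 𝒦) (hη' : ∀ k ∈ 𝒦, η⁻¹ * k * η ∈ 𝒦)
    (s : ℕ) (hs : s.Prime) (hηs : η ^ s = 1) (hηv : (η : AddMonoid.End M) v = v)
    (hfix : ∀ x, (η : AddMonoid.End M) x = x → x = 0 ∨ x = v)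
    (hbig : ∃ x : M, x ≠ 0 ∧ x ≠ v) :
    Nat.card M = 2 ^ s := by
  classical
  have hinj : ∀ (k : (AddMonoid.End M)ˣ) (x : M), (k : AddMonoid.End M) x = 0 → x = 0 := by
    intro k x hx
    have h1 : ((k⁻¹ : (AddMonoid.End M)ˣ) : AddMonoid.End M) * (k : AddMonoid.End M) = 1 :=
      Units.inv_mul k
    have h2 : ((k⁻¹ : (AddMonoid.End M)ˣ) : AddMonoid.End M) ((k : AddMonoid.End M) x) = x :=
      congrArg (fun f : AddMonoid.End M => f x) h1
    rw [hx, map_zero] at h2
    exact h2.symm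
  let S : Set (AddMonoid.End M) := {r | ∃ k ∈ 𝒦, r = (k : AddMonoid.End M)}
  let F : Subring (AddMonoid.End M) := Subring.centralizer S
  have hmemF : ∀ r : AddMonoid.End M, r ∈ F ↔ ∀ k ∈ 𝒦, ((k : (AddMonoid.End M)ˣ) : AddMonoid.End M) * r = r * ((k : (AddMonoid.End M)ˣ) : AddMonoid.End M) := by
    intro r
    rw [Subring.mem_centralizer_iff]
    constructor
    · intro h k hk; exact h _ ⟨k, hk, rfl⟩
    · rintro h g ⟨k, hk, rfl⟩; exact h k hk
  have hA : ∀ k ∈ 𝒦, ((k : (AddMonoid.End M)ˣ) : AddMonoid.End M) ∈ F := by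
    intro k hk
    rw [hmemF]
    intro k' hk'
    rw [← Units.val_mul, ← Units.val_mul, hcomm k' hk' k hk]
  have hB : ∀ r ∈ F, r v = 0 → r = 0 := by
    intro r hr hrv
    ext x
    by_cases hx : x = 0
    · rw [hx]; simp
    · obtain ⟨k, hk, rfl⟩ := htr x hx
      have h1 := (hmemF r).mp hr k hk
      have h2 : (r * ((k : (AddMonoid.End M)ˣ) : AddMonoid.End M)) v = (((k : (AddMonoid.End M)ˣ) : AddMonoid.End M) * r) v := by rw [h1]
      have h3 : r ((k : AddMonoid.End M) v) = (k : AddMonoid.End M) (r v) := h2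
      rw [h3, hrv]; simp
  have hC : ∀ r ∈ F, r ≠ 0 → ∃ k ∈ 𝒦, r = ((k : (AddMonoid.End M)ˣ) : AddMonoid.End M) := by
    intro r hr hr0
    have hrv : r v ≠ 0 := fun h => hr0 (hB r hr h)
    obtain ⟨k, hk, hkv⟩ := htr (r v) hrv
    refine ⟨k, hk, ?_⟩
    have h1 : r - ((k : (AddMonoid.End M)ˣ) : AddMonoid.End M) ∈ F := F.sub_mem hr (hA k hk)
    have h2 : (r - ((k : (AddMonoid.End M)ˣ) : AddMonoid.End M)) v = 0 := by
      show r v - (k : AddMonoid.End M) v = 0
      rw [hkv, sub_self]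
    exact sub_eq_zero.mp (hB _ h1 h2)
  -- conjugation by `η`
  obtain ⟨u, hu⟩ : ∃ u : AddMonoid.End M, u = ((η : (AddMonoid.End M)ˣ) : AddMonoid.End M) := ⟨_, rfl⟩
  obtain ⟨u', hu'⟩ : ∃ u' : AddMonoid.End M, u' = ((η⁻¹ : (AddMonoid.End M)ˣ) : AddMonoid.End M) := ⟨_, rfl⟩
  have huu' : u * u' = 1 := by rw [hu, hu', ← Units.val_mul, mul_inv_cancel, Units.val_one]
  have hu'u : u' * u = 1 := by rw [hu, hu', ← Units.val_mul, inv_mul_cancel, Units.val_one]
  have hconj : ∀ r ∈ F, u * r * u' ∈ F := by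
    intro r hr
    rw [hmemF]
    intro k hk
    have hk1 := hη' k hk
    have e1 : ((k : (AddMonoid.End M)ˣ) : AddMonoid.End M) * u = u * ((η⁻¹ * k * η : (AddMonoid.End M)ˣ) : AddMonoid.End M) := by
      rw [hu, ← Units.val_mul, ← Units.val_mul]; congr 1; group
    have e2 : u' * ((k : (AddMonoid.End M)ˣ) : AddMonoid.End M) = ((η⁻¹ * k * η : (AddMonoid.End M)ˣ) : AddMonoid.End M) * u' := by
      rw [hu', ← Units.val_mul, ← Units.val_mul]; congr 1; group
    have e3 := (hmemF r).mp hr _ hk1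
    calc ((k : (AddMonoid.End M)ˣ) : AddMonoid.End M) * (u * r * u') = (((k : (AddMonoid.End M)ˣ) : AddMonoid.End M) * u) * r * u' := by simp only [mul_assoc]
      _ = u * (((η⁻¹ * k * η : (AddMonoid.End M)ˣ) : AddMonoid.End M) * r) * u' := by rw [e1]; simp only [mul_assoc]
      _ = u * r * (((η⁻¹ * k * η : (AddMonoid.End M)ˣ) : AddMonoid.End M) * u') := by rw [e3]; simp only [mul_assoc]
      _ = u * r * u' * ((k : (AddMonoid.End M)ˣ) : AddMonoid.End M) := by rw [← e2]; simp only [mul_assoc]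
  have hconj' : ∀ r ∈ F, u' * r * u ∈ F := by
    intro r hr
    rw [hmemF]
    intro k hk
    have hk1 := hη k hk
    have e1 : ((k : (AddMonoid.End M)ˣ) : AddMonoid.End M) * u' = u' * ((η * k * η⁻¹ : (AddMonoid.End M)ˣ) : AddMonoid.End M) := by
      rw [hu', ← Units.val_mul, ← Units.val_mul]; congr 1; group
    have e2 : u * ((k : (AddMonoid.End M)ˣ) : AddMonoid.End M) = ((η * k * η⁻¹ : (AddMonoid.End M)ˣ) : AddMonoid.End M) * u := by
      rw [hu, ← Units.val_mul, ← Units.val_mul]; congr 1; group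
    have e3 := (hmemF r).mp hr _ hk1
    calc ((k : (AddMonoid.End M)ˣ) : AddMonoid.End M) * (u' * r * u) = (((k : (AddMonoid.End M)ˣ) : AddMonoid.End M) * u') * r * u := by simp only [mul_assoc]
      _ = u' * (((η * k * η⁻¹ : (AddMonoid.End M)ˣ) : AddMonoid.End M) * r) * u := by rw [e1]; simp only [mul_assoc]
      _ = u' * r * (((η * k * η⁻¹ : (AddMonoid.End M)ˣ) : AddMonoid.End M) * u) := by rw [e3]; simp only [mul_assoc]
      _ = u' * r * u * ((k : (AddMonoid.End M)ˣ) : AddMonoid.End M) := by rw [← e2]; simp only [mul_assoc]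
  let τ : ↥F ≃+* ↥F :=
    { toFun := fun r => ⟨u * r.1 * u', hconj r.1 r.2⟩
      invFun := fun r => ⟨u' * r.1 * u, hconj' r.1 r.2⟩
      left_inv := fun r => Subtype.ext (by
        show u' * (u * r.1 * u') * u = r.1
        calc u' * (u * r.1 * u') * u = (u' * u) * r.1 * (u' * u) := by simp only [mul_assoc]
          _ = r.1 := by rw [hu'u, one_mul, mul_one])
      right_inv := fun r => Subtype.ext (by
        show u * (u' * r.1 * u) * u' = r.1
        calc u * (u' * r.1 * u) * u' = (u * u') * r.1 * (u * u') := by simp only [mul_assoc]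
          _ = r.1 := by rw [huu', one_mul, mul_one])
      map_mul' := fun a b => Subtype.ext (by
        show u * (a.1 * b.1) * u' = (u * a.1 * u') * (u * b.1 * u')
        calc u * (a.1 * b.1) * u' = u * a.1 * 1 * b.1 * u' := by simp only [mul_one, mul_assoc]
          _ = u * a.1 * (u' * u) * b.1 * u' := by rw [hu'u]
          _ = (u * a.1 * u') * (u * b.1 * u') := by simp only [mul_assoc])
      map_add' := fun a b => Subtype.ext (by
        show u * (a.1 + b.1) * u' = u * a.1 * u' + u * b.1 * u'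
        rw [mul_add, add_mul]) }
  have hτ_apply : ∀ r : ↥F, (τ r).1 = u * r.1 * u' := fun r => rfl
  have hpow : ∀ (n : ℕ) (r : ↥F), ((τ ^ n) r).1 = ((η ^ n : (AddMonoid.End M)ˣ) : AddMonoid.End M) * r.1 * (((η ^ n)⁻¹ : (AddMonoid.End M)ˣ) : AddMonoid.End M) := by
    intro n
    induction n with
    | zero =>
      intro r
      rw [pow_zero, pow_zero, inv_one, Units.val_one, one_mul, mul_one]; rfl
    | succ n ih =>
      intro r
      have h1 : (τ ^ (n + 1)) r = (τ ^ n) (τ r) := by rw [pow_succ]; rfl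
      rw [h1, ih, hτ_apply, pow_succ, mul_inv_rev, Units.val_mul, Units.val_mul, hu, hu']
      simp only [mul_assoc]
  have hτs : τ ^ s = 1 := by
    apply RingEquiv.ext
    intro r
    apply Subtype.ext
    rw [hpow, hηs, inv_one, Units.val_one, one_mul, mul_one]; rfl
  have hηinv : ((η⁻¹ : (AddMonoid.End M)ˣ) : AddMonoid.End M) v = v := by
    have h1 : ((η⁻¹ : (AddMonoid.End M)ˣ) : AddMonoid.End M) * (η : AddMonoid.End M) = 1 :=
      Units.inv_mul η
    have h2 : ((η⁻¹ : (AddMonoid.End M)ˣ) : AddMonoid.End M) ((η : AddMonoid.End M) v) = v :=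
      congrArg (fun f : AddMonoid.End M => f v) h1
    rwa [hηv] at h2
  have hτ1 : τ ≠ 1 := by
    intro h
    obtain ⟨x, hx0, hxv⟩ := hbig
    obtain ⟨k, hk, hkx⟩ := htr x hx0
    have h1 : τ ⟨((k : (AddMonoid.End M)ˣ) : AddMonoid.End M), hA k hk⟩ = ⟨((k : (AddMonoid.End M)ˣ) : AddMonoid.End M), hA k hk⟩ := by rw [h]; rfl
    have h2 : u * ((k : (AddMonoid.End M)ˣ) : AddMonoid.End M) * u' = ((k : (AddMonoid.End M)ˣ) : AddMonoid.End M) := congrArg Subtype.val h1
    have h3 : (u * ((k : (AddMonoid.End M)ˣ) : AddMonoid.End M) * u') v = ((k : (AddMonoid.End M)ˣ) : AddMonoid.End M) v := by rw [h2]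
    have h4 : (η : AddMonoid.End M) ((k : AddMonoid.End M)
        (((η⁻¹ : (AddMonoid.End M)ˣ) : AddMonoid.End M) v)) = (k : AddMonoid.End M) v := by
      rw [hu, hu'] at h3; exact h3
    rw [hηinv, hkx] at h4
    rcases hfix x h4 with h5 | h5
    · exact hx0 h5
    · exact hxv h5
  have hfixτ : ∀ r : ↥F, τ r = r → r = 0 ∨ r = 1 := by
    intro r hr
    have h2 : u * r.1 * u' = r.1 := congrArg Subtype.val hr
    have h3 : (u * r.1 * u') v = r.1 v := by rw [h2]
    have h4 : (η : AddMonoid.End M) (r.1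
        (((η⁻¹ : (AddMonoid.End M)ˣ) : AddMonoid.End M) v)) = r.1 v := by
      rw [hu, hu'] at h3; exact h3
    rw [hηinv] at h4
    rcases hfix _ h4 with h5 | h5
    · left
      exact Subtype.ext (hB r.1 r.2 h5)
    · right
      have h6 : (r.1 - 1) v = 0 := by
        show r.1 v - v = 0
        rw [h5, sub_self]
      have h7 := hB _ (F.sub_mem r.2 F.one_mem) h6
      exact Subtype.ext (sub_eq_zero.mp h7)
  have hbij : Function.Bijective (fun r : ↥F => r.1 v) := by
    constructor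
    · intro a b hab
      have h1 : (a.1 - b.1) v = 0 := by
        show a.1 v - b.1 v = 0
        exact sub_eq_zero.mpr hab
      have h2 := hB _ (F.sub_mem a.2 b.2) h1
      exact Subtype.ext (sub_eq_zero.mp h2)
    · intro x
      by_cases hx : x = 0
      · exact ⟨0, by rw [hx]; rfl⟩
      · obtain ⟨k, hk, hkx⟩ := htr x hx
        exact ⟨⟨((k : (AddMonoid.End M)ˣ) : AddMonoid.End M), hA k hk⟩, hkx⟩
  -- ring-theoretic structure on `F`
  letI instCR : CommRing ↥F :=
    { (inferInstance : Ring ↥F) with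
      mul_comm := by
        intro a b
        by_cases hb : (b : AddMonoid.End M) = 0
        · have : b = 0 := Subtype.ext hb
          rw [this, mul_zero, zero_mul]
        · obtain ⟨k, hk, hbk⟩ := hC b.1 b.2 hb
          apply Subtype.ext
          show a.1 * b.1 = b.1 * a.1
          rw [hbk]
          exact ((hmemF a.1).mp a.2 k hk).symm }
  haveI : NoZeroDivisors ↥F := ⟨by
    intro a b hab
    by_contra hcon
    push Not at hcon
    obtain ⟨ha, hb⟩ := hcon
    have ha' : (a : AddMonoid.End M) ≠ 0 := fun h => ha (Subtype.ext h)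
    have hb' : (b : AddMonoid.End M) ≠ 0 := fun h => hb (Subtype.ext h)
    obtain ⟨k, hk, hak⟩ := hC a.1 a.2 ha'
    obtain ⟨k', hk', hbk⟩ := hC b.1 b.2 hb'
    have h2 : a.1 * b.1 = 0 := congrArg Subtype.val hab
    have h1 : (a.1 * b.1) v = 0 := by rw [h2]; rfl
    rw [hak, hbk] at h1
    have h3 : (k : AddMonoid.End M) ((k' : AddMonoid.End M) v) = 0 := h1
    exact hv (hinj k' v (hinj k _ h3))⟩
  haveI : Nontrivial ↥F := ⟨⟨0, 1, fun h => hv (by
    have h1 : (0 : AddMonoid.End M) = 1 := congrArg Subtype.val h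
    have h2 : (0 : AddMonoid.End M) v = (1 : AddMonoid.End M) v := by rw [h1]
    exact h2.symm)⟩⟩
  haveI : IsDomain ↥F := NoZeroDivisors.to_isDomain _
  haveI : Finite (AddMonoid.End M) :=
    Finite.of_injective (fun r : AddMonoid.End M => (r : M → M)) DFunLike.coe_injective
  rw [← Nat.card_eq_of_bijective _ hbij]
  exact zas_domain_card ↥F τ s hs hτs hτ1 hfixτ

end Cfsg.Agent.Helper17
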