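import Mathlib
import Cfsg.Agent.Helper17.Zas2
import Cfsg.Agent.S0035
import Cfsg.Agent.S0042

set_option autoImplicit false

namespace Cfsg.Agent.Helper17

open scoped Pointwise

/-- A finite group acting on a finite abelian group, transitively on the non-zero elements,
with non-trivial point stabilisers and no non-identity element fixing two non-zero points:
the abelian group has order `2 ^ s` with `s` prime.  (`hab` supplies commutativity of the
Frobenius kernel.) -/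
theorem zas_frob (Γ : Type*) [Group Γ] [Finite Γ] (M : Type*) [AddCommGroup M] [Finite M]
    (α : Γ →* (AddMonoid.End M)ˣ)
    (htrans : ∀ x y : M, x ≠ 0 → y ≠ 0 → ∃ g : Γ, (α g : AddMonoid.End M) x = y)
    (hsemi : ∀ g : Γ, g ≠ 1 → ∀ x y : M, x ≠ 0 → y ≠ 0 →
      (α g : AddMonoid.End M) x = x → (α g : AddMonoid.End M) y = y → x = y)
    (hfixex : ∃ g : Γ, g ≠ 1 ∧ ∃ x : M, x ≠ 0 ∧ (α g : AddMonoid.End M) x = x)
    (hbig : ∃ x y : M, x ≠ 0 ∧ y ≠ 0 ∧ x ≠ y)
    (hab : ∀ Y : Subgroup Γ, Group.IsNilpotent Y →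
      (∀ y ∈ Y, y ≠ 1 → ∀ x : M, x ≠ 0 → (α y : AddMonoid.End M) x ≠ x) →
      ∀ y₁ ∈ Y, ∀ y₂ ∈ Y, y₁ * y₂ = y₂ * y₁) :
    ∃ s : ℕ, s.Prime ∧ Nat.card M = 2 ^ s := by
  classical
  have amul : ∀ (g h : Γ) (x : M), (α (g * h) : AddMonoid.End M) x
      = (α g : AddMonoid.End M) ((α h : AddMonoid.End M) x) := by
    intro g h x; rw [map_mul, Units.val_mul]; rfl
  have aone : ∀ x : M, (α 1 : AddMonoid.End M) x = x := by
    intro x; rw [map_one, Units.val_one]; rfl
  have hinj : ∀ (g : Γ) (x : M), (α g : AddMonoid.End M) x = 0 → x = 0 := by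
    intro g x hx
    have h1 := amul g⁻¹ g x
    rw [inv_mul_cancel, aone, hx, map_zero] at h1
    exact h1
  obtain ⟨g₀, hg₀, v, hv, hg₀v⟩ := hfixex
  -- the stabiliser of `v`
  let H : Subgroup Γ :=
    { carrier := {g | (α g : AddMonoid.End M) v = v}
      one_mem' := aone v
      mul_mem' := by
        intro a b ha hb
        show (α (a * b) : AddMonoid.End M) v = v
        rw [amul]
        have hb' : (α b : AddMonoid.End M) v = v := hb
        have ha' : (α a : AddMonoid.End M) v = v := ha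
        rw [hb', ha']
      inv_mem' := by
        intro a ha
        show (α a⁻¹ : AddMonoid.End M) v = v
        have ha' : (α a : AddMonoid.End M) v = v := ha
        have h1 := amul a⁻¹ a v
        rw [inv_mul_cancel, aone, ha'] at h1
        exact h1.symm }
  have hHmem : ∀ g : Γ, g ∈ H ↔ (α g : AddMonoid.End M) v = v := fun g => Iff.rfl
  -- a non-zero point different from `v`
  obtain ⟨w, hw0, hwv⟩ : ∃ w : M, w ≠ 0 ∧ w ≠ v := by
    obtain ⟨x, y, hx, hy, hxy⟩ := hbig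
    by_cases hxv : x = v
    · exact ⟨y, hy, fun h => hxy (hxv.trans h.symm)⟩
    · exact ⟨x, hx, hxv⟩
  have hHbot : H ≠ ⊥ := by
    intro h
    have : g₀ ∈ H := hg₀v
    rw [h, Subgroup.mem_bot] at this
    exact hg₀ this
  have hHtop : H ≠ ⊤ := by
    intro h
    obtain ⟨g, hg⟩ := htrans v w hv hw0
    have : g ∈ H := by rw [h]; exact Subgroup.mem_top g
    rw [hHmem, hg] at this
    exact hwv this
  have hTI : ∀ g : Γ, g ∉ H → H ⊓ (MulAut.conj g • H) = ⊥ := by
    intro g hg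
    rw [eq_bot_iff]
    intro y hy
    rw [Subgroup.mem_bot]
    obtain ⟨hy1, hy2⟩ := Subgroup.mem_inf.mp hy
    obtain ⟨h, hh, hhy⟩ := Subgroup.mem_smul_pointwise_iff_exists _ _ _ |>.mp hy2
    have hhy' : g * h * g⁻¹ = y := hhy
    by_contra hy1'
    have hyv : (α y : AddMonoid.End M) v = v := hy1
    have hhv : (α h : AddMonoid.End M) v = v := hh
    have hyw : (α y : AddMonoid.End M) ((α g : AddMonoid.End M) v) = (α g : AddMonoid.End M) v := by
      rw [← amul, ← hhy']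
      have e : g * h * g⁻¹ * g = g * h := by group
      rw [e, amul, hhv]
    have hgv0 : (α g : AddMonoid.End M) v ≠ 0 := fun h0 => hv (hinj g v h0)
    have := hsemi y hy1' v _ hv hgv0 hyv hyw
    exact hg this.symm
  have hFrob : Cfsg.IsFrobeniusComplement H := ⟨hHbot, hHtop, hTI⟩
  obtain ⟨K, hKcar, hKn, hKc⟩ := Cfsg.Agent.S0035.result H hFrob
  obtain ⟨K', hK'car, -, hK'nil⟩ := Cfsg.Agent.S0042.result H hFrob
  have hKK' : K' = K := SetLike.coe_injective (hK'car.trans hKcar.symm)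
  rw [hKK'] at hK'nil
  have hKmem : ∀ k : Γ, k ∈ K → k = 1 ∨ ∀ g : Γ, k ∉ MulAut.conj g • H := by
    intro k hk
    have : k ∈ (K : Set Γ) := hk
    rw [hKcar] at this
    exact this
  -- `K` acts semiregularly
  have hKsemi : ∀ k ∈ K, k ≠ 1 → ∀ x : M, x ≠ 0 → (α k : AddMonoid.End M) x ≠ x := by
    intro k hk hk1 x hx hkx
    rcases hKmem k hk with h | h
    · exact hk1 h
    · obtain ⟨g, hg⟩ := htrans v x hv hx
      apply h g
      rw [Subgroup.mem_smul_pointwise_iff_exists]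
      refine ⟨g⁻¹ * k * g, ?_, ?_⟩
      · show (α (g⁻¹ * k * g) : AddMonoid.End M) v = v
        rw [amul, amul, hg, hkx, ← hg, ← amul, inv_mul_cancel, aone]
      · show g * (g⁻¹ * k * g) * g⁻¹ = k
        group
  -- `K` is transitive
  have hKtr : ∀ x : M, x ≠ 0 → ∃ k ∈ K, (α k : AddMonoid.End M) v = x := by
    intro x hx
    obtain ⟨g, hg⟩ := htrans v x hv hx
    obtain ⟨⟨k, h⟩, hkh, -⟩ := Subgroup.IsComplement.existsUnique hKc g
    have hkh' : (k : Γ) * (h : Γ) = g := hkh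
    refine ⟨k, k.2, ?_⟩
    have hhv : (α (h : Γ) : AddMonoid.End M) v = v := h.2
    rw [← hg, ← hkh', amul, hhv]
  have hKcomm := hab K hK'nil hKsemi
  -- an element of prime order in `H`
  have hHcard : Nat.card H ≠ 1 := by
    intro h
    exact hHbot ((Subgroup.card_eq_one).mp h)
  obtain ⟨s, hs, hsdvd⟩ := Nat.exists_prime_and_dvd hHcard
  haveI := Fact.mk hs
  obtain ⟨h, hh⟩ := exists_prime_orderOf_dvd_card' s hsdvd
  have hh1 : (h : Γ) ≠ 1 := by
    intro h1
    have : h = 1 := Subtype.ext h1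
    rw [this, orderOf_one] at hh
    exact hs.one_lt.ne hh
  have hhs : (h : Γ) ^ s = 1 := by
    have : h ^ s = 1 := by rw [← hh]; exact pow_orderOf_eq_one h
    have := congrArg Subtype.val this
    simpa using this
  refine ⟨s, hs, ?_⟩
  refine zas_ring_card M (K.map α) ?_ v hv ?_ (α h) ?_ ?_ s hs ?_ h.2 ?_ ⟨w, hw0, hwv⟩
  · rintro a ⟨k₁, hk₁, rfl⟩ b ⟨k₂, hk₂, rfl⟩
    rw [← map_mul, ← map_mul, hKcomm k₁ hk₁ k₂ hk₂]
  · intro x hx
    obtain ⟨k, hk, hkx⟩ := hKtr x hx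
    exact ⟨α k, ⟨k, hk, rfl⟩, hkx⟩
  · rintro a ⟨k, hk, rfl⟩
    refine ⟨(h : Γ) * k * (h : Γ)⁻¹, hKn.conj_mem k hk h, ?_⟩
    rw [map_mul, map_mul, map_inv]
  · rintro a ⟨k, hk, rfl⟩
    refine ⟨(h : Γ)⁻¹ * k * (h : Γ), ?_, ?_⟩
    · have := hKn.conj_mem k hk (h : Γ)⁻¹
      rwa [inv_inv] at this
    · rw [map_mul, map_mul, map_inv]
  · rw [← map_pow, hhs, map_one]
  · intro x hx
    by_cases hx0 : x = 0
    · exact Or.inl hx0
    · exact Or.inr (hsemi h hh1 x v hx0 hv hx h.2)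

end Cfsg.Agent.Helper17
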