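import Mathlib
import Cfsg.Agent.Helper17.Zas3

set_option autoImplicit false

namespace Cfsg.Agent.Helper17

/-- Multiplicative version of `zas_frob`. -/
theorem zas_frob_mul (Γ : Type*) [Group Γ] [Finite Γ] (A : Type*) [Group A] [Finite A]
    (hA : ∀ x y : A, x * y = y * x) (β : Γ →* MulAut A)
    (htrans : ∀ x y : A, x ≠ 1 → y ≠ 1 → ∃ g : Γ, β g x = y)
    (hsemi : ∀ g : Γ, g ≠ 1 → ∀ x y : A, x ≠ 1 → y ≠ 1 → β g x = x → β g y = y → x = y)
    (hfixex : ∃ g : Γ, g ≠ 1 ∧ ∃ x : A, x ≠ 1 ∧ β g x = x)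
    (hbig : ∃ x y : A, x ≠ 1 ∧ y ≠ 1 ∧ x ≠ y)
    (hab : ∀ Y : Subgroup Γ, Group.IsNilpotent Y →
      (∀ y ∈ Y, y ≠ 1 → ∀ x : A, x ≠ 1 → β y x ≠ x) →
      ∀ y₁ ∈ Y, ∀ y₂ ∈ Y, y₁ * y₂ = y₂ * y₁) :
    ∃ s : ℕ, s.Prime ∧ Nat.card A = 2 ^ s := by
  classical
  letI : CommGroup A := { (inferInstance : Group A) with mul_comm := hA }
  let α₀ : Γ →* AddMonoid.End (Additive A) :=
    { toFun := fun g =>
        { toFun := fun x => Additive.ofMul (β g (Additive.toMul x))
          map_zero' := congrArg Additive.ofMul (map_one (β g))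
          map_add' := fun x y =>
            congrArg Additive.ofMul ((β g).map_mul (Additive.toMul x) (Additive.toMul y)) }
      map_one' := AddMonoidHom.ext fun x => congrArg Additive.ofMul (by rw [map_one]; rfl)
      map_mul' := fun g h =>
        AddMonoidHom.ext fun x => congrArg Additive.ofMul (by rw [map_mul]; rfl) }
  have hα : ∀ (g : Γ) (x : Additive A),
      ((α₀.toHomUnits g : (AddMonoid.End (Additive A))ˣ) : AddMonoid.End (Additive A)) x
        = Additive.ofMul (β g (Additive.toMul x)) := fun g x => rfl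
  have hne : ∀ x : Additive A, x ≠ 0 → Additive.toMul x ≠ 1 :=
    fun x hx h => hx (congrArg Additive.ofMul h)
  refine zas_frob Γ (Additive A) α₀.toHomUnits ?_ ?_ ?_ ?_ ?_
  · intro x y hx hy
    obtain ⟨g, hg⟩ := htrans _ _ (hne x hx) (hne y hy)
    exact ⟨g, (hα g x).trans (congrArg Additive.ofMul hg)⟩
  · intro g hg x y hx hy h1 h2
    have := hsemi g hg _ _ (hne x hx) (hne y hy) (congrArg Additive.toMul h1)
      (congrArg Additive.toMul h2)
    exact congrArg Additive.ofMul this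
  · obtain ⟨g, hg, x, hx, hgx⟩ := hfixex
    exact ⟨g, hg, Additive.ofMul x, fun h => hx (congrArg Additive.toMul h),
      (hα g _).trans (congrArg Additive.ofMul hgx)⟩
  · obtain ⟨x, y, hx, hy, hxy⟩ := hbig
    exact ⟨Additive.ofMul x, Additive.ofMul y, fun h => hx (congrArg Additive.toMul h),
      fun h => hy (congrArg Additive.toMul h), fun h => hxy (congrArg Additive.toMul h)⟩
  · intro Y hY hYs
    exact hab Y hY (fun y hy hy1 x hx hyx => hYs y hy hy1 (Additive.ofMul x)
      (fun h => hx (congrArg Additive.toMul h)) ((hα y _).trans (congrArg Additive.ofMul hyx)))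

end Cfsg.Agent.Helper17
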