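import Mathlib
import Cfsg.Agent.Helper17.Zas4
import Cfsg.Agent.Helper1.Quat

set_option autoImplicit false

namespace Cfsg.Agent.Helper17

/-- A faithful doubly transitive group in which no non-identity element fixes three points,
some non-identity element fixes two points, and with a regular normal subgroup, has degree
`2 ^ p` with `p` prime. -/
theorem zas_main {G Ω : Type*} [Group G]
    [MulAction G Ω] [Fintype Ω] [FaithfulSMul G Ω] (h2 : MulAction.IsMultiplyPretransitive G Ω 2)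
    (h3 : ∀ g : G, ∀ a b c : Ω, a ≠ b → b ≠ c → a ≠ c → g • a = a → g • b = b → g • c = c → g = 1)
    (hfix : ∃ g : G, g ≠ 1 ∧ ∃ a b : Ω, a ≠ b ∧ g • a = a ∧ g • b = b)
    (N : Subgroup G) [hNn : N.Normal] (hNt : MulAction.IsPretransitive N Ω)
    (hNr : ∀ a : Ω, MulAction.stabilizer N a = ⊥) :
    ∃ p : ℕ, p.Prime ∧ Fintype.card Ω = 2 ^ p := by
  classical
  haveI : Finite G := Finite.of_injective _ (MulAction.toPerm_injective (α := G) (β := Ω))
  obtain ⟨g₀, hg₀1, a, b, hab, hga, hgb⟩ := hfix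
  rw [MulAction.is_two_pretransitive_iff] at h2
  -- regularity
  have hreg : ∀ n ∈ N, n • a = a → n = 1 := by
    intro n hn hna
    have h1 : (⟨n, hn⟩ : ↥N) ∈ MulAction.stabilizer N a := by
      rw [MulAction.mem_stabilizer_iff]; exact hna
    rw [hNr a, Subgroup.mem_bot] at h1
    exact congrArg Subtype.val h1
  have hsurj : ∀ ω : Ω, ∃ n ∈ N, n • a = ω := by
    intro ω
    obtain ⟨n, hn⟩ := MulAction.exists_smul_eq N a ω
    exact ⟨n.1, n.2, hn⟩
  have hreg2 : ∀ n ∈ N, ∀ m ∈ N, n • a = m • a → n = m := by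
    intro n hn m hm h
    have h1 : (m⁻¹ * n) • a = a := by rw [mul_smul, h, inv_smul_smul]
    have h2' := hreg _ (N.mul_mem (N.inv_mem hm) hn) h1
    exact (inv_mul_eq_one.mp h2').symm
  -- a third point
  obtain ⟨c, hc⟩ : ∃ c : Ω, g₀ • c ≠ c := by
    by_contra hcon
    push Not at hcon
    exact hg₀1 (FaithfulSMul.eq_of_smul_eq_smul (α := Ω) (fun c => by rw [hcon c, one_smul]))
  have hca : c ≠ a := fun h => hc (by rw [h]; exact hga)
  have hcb : c ≠ b := fun h => hc (by rw [h]; exact hgb)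
  obtain ⟨nb, hnbN, hnb⟩ := hsurj b
  obtain ⟨nc, hncN, hnc⟩ := hsurj c
  have hnb1 : nb ≠ 1 := fun h => hab (by rw [← hnb, h, one_smul])
  have hnc1 : nc ≠ 1 := fun h => hca (by rw [← hnc, h, one_smul])
  have hnbc : nb ≠ nc := fun h => hcb (by rw [← hnc, ← hnb, h])
  -- the point stabiliser
  obtain ⟨G₀, hG₀def⟩ : ∃ G₀ : Subgroup G, G₀ = MulAction.stabilizer G a := ⟨_, rfl⟩
  have hG₀ : ∀ g : G, g ∈ G₀ ↔ g • a = a := fun g => by
    rw [hG₀def]; exact MulAction.mem_stabilizer_iff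
  have hconj_smul : ∀ g ∈ G₀, ∀ n : G, (g * n * g⁻¹) • a = g • (n • a) := by
    intro g hg n
    have hg' : g⁻¹ • a = a := by
      have := (hG₀ g).mp hg
      rw [inv_smul_eq_iff, this]
    rw [mul_smul, mul_smul, hg']
  have hconj_eq : ∀ g ∈ G₀, ∀ n ∈ N, ∀ m ∈ N, g • (n • a) = m • a → g * n * g⁻¹ = m := by
    intro g hg n hn m hm h
    apply hreg2 _ (hNn.conj_mem n hn g) m hm
    rw [hconj_smul g hg, h]
  have htransN : ∀ n ∈ N, n ≠ 1 → ∀ m ∈ N, m ≠ 1 → ∃ g ∈ G₀, g * n * g⁻¹ = m := by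
    intro n hn hn1 m hm hm1
    have hna : a ≠ n • a := fun h => hn1 (hreg n hn h.symm)
    have hma : a ≠ m • a := fun h => hm1 (hreg m hm h.symm)
    obtain ⟨g, hga', hgn⟩ := h2 hna hma
    exact ⟨g, (hG₀ g).mpr hga', hconj_eq g ((hG₀ g).mpr hga') n hn m hm hgn⟩
  have hsemiG : ∀ g ∈ G₀, g ≠ 1 → ∀ n ∈ N, ∀ m ∈ N, n ≠ 1 → m ≠ 1 →
      g * n * g⁻¹ = n → g * m * g⁻¹ = m → n = m := by
    intro g hg hg1 n hn m hm hn1 hm1 hgn hgm
    by_contra hnm
    have hna : a ≠ n • a := fun h => hn1 (hreg n hn h.symm)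
    have hma : a ≠ m • a := fun h => hm1 (hreg m hm h.symm)
    have hnma : n • a ≠ m • a := fun h => hnm (hreg2 n hn m hm h)
    have e1 : g • (n • a) = n • a := by rw [← hconj_smul g hg, hgn]
    have e2 : g • (m • a) = m • a := by rw [← hconj_smul g hg, hgm]
    exact hg1 (h3 g a (n • a) (m • a) hna hnma hma ((hG₀ g).mp hg) e1 e2)
  have hg₀G₀ : g₀ ∈ G₀ := (hG₀ g₀).mpr hga
  have hg₀nb : g₀ * nb * g₀⁻¹ = nb :=
    hconj_eq g₀ hg₀G₀ nb hnbN nb hnbN (by rw [hnb, hgb])
  -- exponent two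
  have hnb2 : nb * nb = 1 := by
    by_contra h
    have h1 : g₀ * (nb * nb) * g₀⁻¹ = nb * nb := by
      calc g₀ * (nb * nb) * g₀⁻¹ = (g₀ * nb * g₀⁻¹) * (g₀ * nb * g₀⁻¹) := by group
        _ = nb * nb := by rw [hg₀nb]
    have h2' := hsemiG g₀ hg₀G₀ hg₀1 nb hnbN (nb * nb) (N.mul_mem hnbN hnbN) hnb1 h hg₀nb h1
    exact hnb1 (by
      have : nb * 1 = nb * nb := by rw [mul_one]; exact h2'
      exact (mul_left_cancel this).symm)
  have hN2 : ∀ n ∈ N, n * n = 1 := by
    intro n hn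
    by_cases hn1 : n = 1
    · rw [hn1, mul_one]
    · obtain ⟨g, -, hg⟩ := htransN nb hnbN hnb1 n hn hn1
      rw [← hg]
      calc g * nb * g⁻¹ * (g * nb * g⁻¹) = g * (nb * nb) * g⁻¹ := by group
        _ = 1 := by rw [hnb2]; group
  have hNcomm : ∀ n ∈ N, ∀ m ∈ N, n * m = m * n := by
    intro n hn m hm
    have h1 := hN2 n hn
    have h2' := hN2 m hm
    have h3' := hN2 (n * m) (N.mul_mem hn hm)
    have : n * m = m⁻¹ * n⁻¹ := by
      rw [← mul_inv_rev]; exact eq_inv_of_mul_eq_one_left h3'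
    rw [this, inv_eq_of_mul_eq_one_left h2', inv_eq_of_mul_eq_one_left h1]
  have hN1 : N ≠ ⊥ := fun h => hnb1 (by
    have := hnbN
    rw [h, Subgroup.mem_bot] at this
    exact this)
  -- the conjugation action of `G₀` on `N`
  obtain ⟨β, hβdef⟩ : ∃ β : ↥G₀ →* MulAut ↥N, β = (MulAut.conjNormal (H := N)).comp G₀.subtype :=
    ⟨_, rfl⟩
  have hβ : ∀ (g : ↥G₀) (x : ↥N), ((β g x : ↥N) : G) = (g : G) * (x : G) * (g : G)⁻¹ := by
    intro g x
    rw [hβdef]
    exact MulAut.conjNormal_apply (g : G) x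
  have key : ∃ s : ℕ, s.Prime ∧ Nat.card ↥N = 2 ^ s := by
    refine zas_frob_mul ↥G₀ ↥N (fun x y => Subtype.ext (hNcomm x x.2 y y.2)) β ?_ ?_ ?_ ?_ ?_
    · -- transitive
      intro x y hx hy
      have hx' : (x : G) ≠ 1 := fun h => hx (Subtype.ext h)
      have hy' : (y : G) ≠ 1 := fun h => hy (Subtype.ext h)
      obtain ⟨g, hg, hgxy⟩ := htransN x x.2 hx' y y.2 hy'
      exact ⟨⟨g, hg⟩, Subtype.ext ((hβ ⟨g, hg⟩ x).trans hgxy)⟩
    · -- at most one fixed point
      intro g hg x y hx hy hgx hgy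
      have hx' : (x : G) ≠ 1 := fun h => hx (Subtype.ext h)
      have hy' : (y : G) ≠ 1 := fun h => hy (Subtype.ext h)
      have hg' : (g : G) ≠ 1 := fun h => hg (Subtype.ext h)
      have e1 : (g : G) * x * (g : G)⁻¹ = x := by rw [← hβ, hgx]
      have e2 : (g : G) * y * (g : G)⁻¹ = y := by rw [← hβ, hgy]
      exact Subtype.ext (hsemiG g g.2 hg' x x.2 y y.2 hx' hy' e1 e2)
    · -- a fixed point exists
      refine ⟨⟨g₀, hg₀G₀⟩, fun h => hg₀1 (congrArg Subtype.val h), ⟨nb, hnbN⟩,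
        fun h => hnb1 (congrArg Subtype.val h), ?_⟩
      exact Subtype.ext ((hβ _ _).trans hg₀nb)
    · exact ⟨⟨nb, hnbN⟩, ⟨nc, hncN⟩, fun h => hnb1 (congrArg Subtype.val h),
        fun h => hnc1 (congrArg Subtype.val h), fun h => hnbc (congrArg Subtype.val h)⟩
    · -- nilpotent semiregular subgroups are commutative
      intro Y hYnil hYsemi y₁ hy₁ y₂ hy₂
      obtain ⟨Y', hY'def⟩ : ∃ Y' : Subgroup G, Y' = Y.map G₀.subtype := ⟨_, rfl⟩
      have hfpf : ∀ h ∈ Y', h ≠ 1 → N ⊓ Subgroup.centralizer {h} = ⊥ := by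
        intro h hhY hh1
        rw [hY'def] at hhY
        obtain ⟨y, hy, rfl⟩ := hhY
        rw [eq_bot_iff]
        intro n hn
        rw [Subgroup.mem_bot]
        obtain ⟨hnN, hnC⟩ := Subgroup.mem_inf.mp hn
        by_contra hn1
        have hy1 : y ≠ 1 := fun h => hh1 (by rw [h]; rfl)
        have hcomm : (y : G) * n = n * (y : G) :=
          (Subgroup.mem_centralizer_iff.mp hnC) (y : G) (Set.mem_singleton _)
        have hfixn : β y ⟨n, hnN⟩ = ⟨n, hnN⟩ := by
          apply Subtype.ext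
          rw [hβ]
          show (y : G) * n * (y : G)⁻¹ = n
          rw [hcomm, mul_inv_cancel_right]
        exact hYsemi y hy hy1 ⟨n, hnN⟩ (fun h => hn1 (congrArg Subtype.val h)) hfixn
      have hodd : ¬ 2 ∣ Nat.card ↥Y' := by
        intro h2dvd
        haveI : Fact (Nat.Prime 2) := ⟨Nat.prime_two⟩
        obtain ⟨t, ht⟩ := exists_prime_orderOf_dvd_card' 2 h2dvd
        have ht1 : (t : G) ≠ 1 := by
          intro h
          have : t = 1 := Subtype.ext h
          rw [this, orderOf_one] at ht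
          omega
        have ht2 : (t : G) * (t : G) = 1 := by
          have : t ^ 2 = 1 := by rw [← ht]; exact pow_orderOf_eq_one t
          have := congrArg Subtype.val this
          simpa [pow_two] using this
        have h1 := hfpf (t : G) t.2 ht1
        have htinv : (t : G)⁻¹ = t := inv_eq_of_mul_eq_one_left ht2
        have hmem : nb * ((t : G) * nb * (t : G)⁻¹) ∈ N ⊓ Subgroup.centralizer {(t : G)} := by
          refine Subgroup.mem_inf.mpr ⟨N.mul_mem hnbN (hNn.conj_mem nb hnbN _), ?_⟩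
          rw [Subgroup.mem_centralizer_iff]
          intro h hh
          rw [Set.mem_singleton_iff] at hh
          rw [hh]
          have hc := hNcomm nb hnbN ((t : G) * nb * (t : G)⁻¹) (hNn.conj_mem nb hnbN _)
          calc (t : G) * (nb * ((t : G) * nb * (t : G)⁻¹))
              = ((t : G) * nb * (t : G)⁻¹) * ((t : G) * (t : G)) * nb * (t : G)⁻¹ := by group
            _ = ((t : G) * nb * (t : G)⁻¹) * nb * (t : G)⁻¹ := by rw [ht2, mul_one]
            _ = (nb * ((t : G) * nb * (t : G)⁻¹)) * (t : G)⁻¹ := by rw [← hc]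
            _ = nb * ((t : G) * nb * (t : G)⁻¹) * (t : G) := by rw [htinv]
        rw [h1, Subgroup.mem_bot] at hmem
        have h5 : (t : G) * nb * (t : G)⁻¹ = nb := by
          have h6 : (t : G) * nb * (t : G)⁻¹ = nb⁻¹ := (inv_eq_of_mul_eq_one_right hmem).symm
          rw [h6]; exact inv_eq_of_mul_eq_one_left hnb2
        have hmem2 : nb ∈ N ⊓ Subgroup.centralizer {(t : G)} := by
          refine Subgroup.mem_inf.mpr ⟨hnbN, ?_⟩
          rw [Subgroup.mem_centralizer_iff]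
          intro h hh
          rw [Set.mem_singleton_iff] at hh
          rw [hh]
          calc (t : G) * nb = ((t : G) * nb * (t : G)⁻¹) * (t : G) := by group
            _ = nb * (t : G) := by rw [h5]
        rw [h1, Subgroup.mem_bot] at hmem2
        exact hnb1 hmem2
      haveI : IsZGroup ↥Y' := by
        refine ⟨fun p hp P => ?_⟩
        haveI := Fact.mk hp
        have huniq := Cfsg.Agent.Helper1.fpf_sylow_unique N Y' hN1 hfpf p P
        rcases Cfsg.Agent.Helper1.pgroup_unique_cyclic_or_quat p P.isPGroup' huniq with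
          h | ⟨hp2, n, ⟨e⟩⟩
        · exact h
        · exfalso
          apply hodd
          have hcardP : Nat.card ↥(P : Subgroup ↥Y') = 4 * 2 ^ n := by
            rw [Nat.card_congr e.toEquiv, Nat.card_eq_fintype_card, QuaternionGroup.card]
          have hdvd : Nat.card ↥(P : Subgroup ↥Y') ∣ Nat.card ↥Y' :=
            Subgroup.card_subgroup_dvd_card _
          exact Dvd.dvd.trans ⟨2 * 2 ^ n, by rw [hcardP]; ring⟩ hdvd
      haveI : Group.IsNilpotent ↥Y := hYnil
      haveI : Group.IsNilpotent ↥Y' := by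
        rw [hY'def]
        exact Group.nilpotent_of_mulEquiv
          (Y.equivMapOfInjective G₀.subtype (Subgroup.subtype_injective G₀))
      haveI : IsCyclic ↥Y' := inferInstance
      have hm₁ : (y₁ : G) ∈ Y' := by rw [hY'def]; exact Subgroup.mem_map_of_mem _ hy₁
      have hm₂ : (y₂ : G) ∈ Y' := by rw [hY'def]; exact Subgroup.mem_map_of_mem _ hy₂
      have hc := (IsCyclic.isMulCommutative (α := ↥Y')).is_comm.comm
        ⟨(y₁ : G), hm₁⟩ ⟨(y₂ : G), hm₂⟩
      have hc' : (y₁ : G) * (y₂ : G) = (y₂ : G) * (y₁ : G) := congrArg Subtype.val hc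
      exact Subtype.ext hc'
  obtain ⟨s, hs, hcard⟩ := key
  refine ⟨s, hs, ?_⟩
  rw [← hcard, ← Nat.card_eq_fintype_card]
  symm
  apply Nat.card_eq_of_bijective (fun n : ↥N => (n : G) • a)
  constructor
  · intro n m h
    exact Subtype.ext (hreg2 n n.2 m m.2 h)
  · intro ω
    obtain ⟨n, hn, hnω⟩ := hsurj ω
    exact ⟨⟨n, hn⟩, hnω⟩

end Cfsg.Agent.Helper17
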